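import Mathlib
import Cfsg.Prelude.Def_Classical

/-!
Sign sums (Arf invariant) of quadratic functions with values in `ZMod 2`.
-/

set_option autoImplicit false

namespace Cfsg.Agent.Lib.Helper43

/-- The sign character of `ZMod 2`. -/
def sgn (a : ZMod 2) : ℤ := if a = 0 then 1 else -1

theorem sgn_add (a b : ZMod 2) : sgn (a + b) = sgn a * sgn b := by
  revert a b; decide

theorem sgn_zero : sgn 0 = 1 := by decide

theorem sgn_one : sgn 1 = -1 := by decide

theorem zmod2_cases (a : ZMod 2) : a = 0 ∨ a = 1 := by revert a; decide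

theorem zmod2_add_self (a : ZMod 2) : a + a = 0 := by revert a; decide

theorem zmod2_mul_self (a : ZMod 2) : a * a = a := by revert a; decide

theorem zmod2_ne_zero (a : ZMod 2) : a ≠ 0 ↔ a = 1 := by revert a; decide

theorem zmod2_eq_of_add_eq_zero (a b : ZMod 2) (h : a + b = 0) : a = b := by
  revert a b; decide

section General

variable {V : Type*} [AddCommGroup V]

/-- `f` is additive in each variable. -/
def IsBiadd (f : V → V → ZMod 2) : Prop :=
  (∀ u u' v, f (u + u') v = f u v + f u' v) ∧ (∀ u v v', f u (v + v') = f u v + f u v')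

/-- `q` polarizes to `f`. -/
def Polarizes (q : V → ZMod 2) (f : V → V → ZMod 2) : Prop :=
  ∀ u v, q (u + v) = q u + q v + f u v

/-- Every nonzero vector pairs nontrivially with something. -/
def Nondeg (f : V → V → ZMod 2) : Prop := ∀ v, v ≠ 0 → ∃ u, f u v = 1

theorem IsBiadd.zero_left {f : V → V → ZMod 2} (hf : IsBiadd f) (v : V) : f 0 v = 0 := by
  have h := hf.1 0 0 v
  rw [add_zero] at h
  have h2 := zmod2_add_self (f 0 v)
  rw [← h] at h2
  exact h2

theorem IsBiadd.zero_right {f : V → V → ZMod 2} (hf : IsBiadd f) (v : V) : f v 0 = 0 := by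
  have h := hf.2 v 0 0
  rw [add_zero] at h
  have h2 := zmod2_add_self (f v 0)
  rw [← h] at h2
  exact h2

theorem Polarizes.zero {q : V → ZMod 2} {f : V → V → ZMod 2} (hq : Polarizes q f)
    (hf : IsBiadd f) : q 0 = 0 := by
  have h := hq 0 0
  rw [add_zero, hf.zero_left, add_zero] at h
  have h2 := zmod2_add_self (q 0)
  rw [← h] at h2
  exact h2

theorem Polarizes.symm {q : V → ZMod 2} {f : V → V → ZMod 2} (hq : Polarizes q f)
    (u v : V) : f u v = f v u := by
  have h1 := hq u v
  have h2 := hq v u
  rw [add_comm v u, h1] at h2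
  have : f u v = q u + q v + f u v + (q u + q v) := by
    have := zmod2_add_self (q u + q v)
    rw [add_comm (q u + q v) (f u v), add_assoc, this, add_zero]
  rw [this, h2]
  have := zmod2_add_self (q v + q u)
  rw [add_comm (q v + q u) (f v u), add_comm (q u) (q v), add_assoc, this, add_zero]

theorem Polarizes.self {q : V → ZMod 2} {f : V → V → ZMod 2} (hq : Polarizes q f)
    (hf : IsBiadd f) (v : V) (hv : v + v = 0) : f v v = 0 := by
  have h := hq v v
  rw [hv, hq.zero hf, zmod2_add_self, zero_add] at h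
  exact h.symm

variable [Fintype V]

/-- Orthogonality: a function shifted by one under a translation has zero sign sum. -/
theorem sum_sgn_eq_zero (h : V → ZMod 2) (u0 : V) (hu0 : ∀ u, h (u + u0) = h u + 1) :
    ∑ u, sgn (h u) = 0 := by
  have h1 : ∑ u, sgn (h (u + u0)) = ∑ u, sgn (h u) :=
    Fintype.sum_equiv (Equiv.addRight u0) _ _ (fun u => rfl)
  have h2 : ∑ u, sgn (h (u + u0)) = - ∑ u, sgn (h u) := by
    rw [← Finset.sum_neg_distrib]
    apply Finset.sum_congr rfl
    intro u _
    rw [hu0, sgn_add, sgn_one]; ring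
  linarith

/-- The sign sum of a `ZMod 2`-valued function. -/
def signSum (q : V → ZMod 2) : ℤ := ∑ v, sgn (q v)

omit [AddCommGroup V] in
theorem signSum_comp {W : Type*} [Fintype W] (q : V → ZMod 2) (g : W ≃ V) :
    signSum (fun w => q (g w)) = signSum q :=
  Fintype.sum_equiv g _ _ (fun _ => rfl)

theorem sum_sgn_biadd [DecidableEq V] {f : V → V → ZMod 2} (hf : IsBiadd f) (hnd : Nondeg f) (v : V) :
    ∑ u, sgn (f u v) = if v = 0 then (Fintype.card V : ℤ) else 0 := by
  split_ifs with hv
  · subst hv
    simp [hf.zero_right, sgn_zero]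
  · obtain ⟨u0, hu0⟩ := hnd v hv
    apply sum_sgn_eq_zero (fun u => f u v) u0
    intro u
    rw [hf.1, hu0]

theorem signSum_sq {q : V → ZMod 2} {f : V → V → ZMod 2} (hq : Polarizes q f)
    (hf : IsBiadd f) (hnd : Nondeg f) : signSum q ^ 2 = (Fintype.card V : ℤ) := by
  classical
  have h1 : signSum q ^ 2 = ∑ u, ∑ v, sgn (q u) * sgn (q v) := by
    rw [sq, signSum, Finset.sum_mul_sum]
  have h2 : ∀ u, ∑ v, sgn (q u) * sgn (q v) = ∑ v, sgn (q v) * sgn (f u v) := by
    intro u
    rw [← Fintype.sum_equiv (Equiv.addLeft u) (fun v => sgn (q u) * sgn (q (u + v)))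
      (fun v => sgn (q u) * sgn (q v)) (fun v => rfl)]
    apply Finset.sum_congr rfl
    intro v _
    rw [hq u v, sgn_add, sgn_add]
    have : sgn (q u) * sgn (q u) = 1 := by rw [← sgn_add, zmod2_add_self, sgn_zero]
    calc sgn (q u) * (sgn (q u) * sgn (q v) * sgn (f u v))
        = (sgn (q u) * sgn (q u)) * (sgn (q v) * sgn (f u v)) := by ring
      _ = sgn (q v) * sgn (f u v) := by rw [this, one_mul]
  rw [h1, Finset.sum_congr rfl (fun u _ => h2 u), Finset.sum_comm]
  have h3 : ∀ v, ∑ u, sgn (q v) * sgn (f u v) = sgn (q v) * (if v = 0 then (Fintype.card V : ℤ) else 0) := by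
    intro v
    rw [← Finset.mul_sum, sum_sgn_biadd hf hnd]
  rw [Finset.sum_congr rfl (fun v _ => h3 v)]
  simp [hq.zero hf, sgn_zero]

theorem signSum_shift {q : V → ZMod 2} {f : V → V → ZMod 2} (hq : Polarizes q f) (w : V) :
    signSum (fun v => q v + f v w) = sgn (q w) * signSum q := by
  unfold signSum
  rw [Finset.mul_sum, ← Fintype.sum_equiv (Equiv.addRight w) (fun v => sgn (q w) * sgn (q (v + w)))
      (fun v => sgn (q w) * sgn (q v)) (fun v => rfl)]
  apply Finset.sum_congr rfl
  intro v _
  rw [hq v w, sgn_add, sgn_add, sgn_add]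
  have : sgn (q w) * sgn (q w) = 1 := by rw [← sgn_add, zmod2_add_self, sgn_zero]
  calc sgn (q v) * sgn (f v w) = (sgn (q w) * sgn (q w)) * (sgn (q v) * sgn (f v w)) := by
        rw [this, one_mul]
    _ = sgn (q w) * (sgn (q v) * sgn (q w) * sgn (f v w)) := by ring

theorem signSum_ne_zero {q : V → ZMod 2} {f : V → V → ZMod 2} (hq : Polarizes q f)
    (hf : IsBiadd f) (hnd : Nondeg f) : signSum q ≠ 0 := by
  intro h
  have h2 := signSum_sq hq hf hnd
  rw [h] at h2
  have : (Fintype.card V : ℤ) ≠ 0 := by
    have : 0 < Fintype.card V := Fintype.card_pos_iff.mpr ⟨0⟩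
    exact_mod_cast this.ne'
  apply this
  rw [← h2]; ring

end General

section Transvection

variable {V : Type*} [AddCommGroup V] [Module (ZMod 2) V]

theorem vec_add_self (v : V) : v + v = 0 := by
  have : v + v = ((1 : ZMod 2) + 1) • v := by rw [add_smul, one_smul]
  rw [this]
  have h2 : (1 : ZMod 2) + 1 = 0 := by decide
  rw [h2, zero_smul]

theorem IsBiadd.smul_left {f : V → V → ZMod 2} (hf : IsBiadd f) (c : ZMod 2) (u v : V) :
    f (c • u) v = c * f u v := by
  rcases zmod2_cases c with h | h
  · rw [h, zero_smul, hf.zero_left, zero_mul]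
  · rw [h, one_smul, one_mul]

theorem IsBiadd.smul_right {f : V → V → ZMod 2} (hf : IsBiadd f) (c : ZMod 2) (u v : V) :
    f u (c • v) = c * f u v := by
  rcases zmod2_cases c with h | h
  · rw [h, zero_smul, hf.zero_right, zero_mul]
  · rw [h, one_smul, one_mul]

theorem Polarizes.smul {q : V → ZMod 2} {f : V → V → ZMod 2} (hq : Polarizes q f)
    (hf : IsBiadd f) (c : ZMod 2) (v : V) : q (c • v) = c * q v := by
  rcases zmod2_cases c with h | h
  · rw [h, zero_smul, hq.zero hf, zero_mul]
  · rw [h, one_smul, one_mul]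

/-- The transvection `v ↦ v + f(v, a) a`. -/
noncomputable def transv (f : V → V → ZMod 2) (hf : IsBiadd f) (a : V) (ha : f a a = 0) :
    V ≃ₗ[ZMod 2] V :=
  LinearEquiv.ofInvolutive
    { toFun := fun v => v + f v a • a
      map_add' := by
        intro u v
        rw [hf.1, add_smul]
        abel
      map_smul' := by
        intro c v
        rw [hf.smul_left, RingHom.id_apply, smul_add, smul_smul] }
    (by
      intro v
      show (v + f v a • a) + f (v + f v a • a) a • a = v
      rw [hf.1, hf.smul_left, ha, mul_zero, add_zero, add_assoc, vec_add_self, add_zero])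

theorem transv_apply (f : V → V → ZMod 2) (hf : IsBiadd f) (a : V) (ha : f a a = 0) (v : V) :
    transv f hf a ha v = v + f v a • a := rfl

/-- The effect of a transvection on a quadratic function. -/
theorem Polarizes.apply_transv {q : V → ZMod 2} {f : V → V → ZMod 2} (hq : Polarizes q f)
    (hf : IsBiadd f) (a : V) (v : V) :
    q (transv f hf a (hq.self hf a (vec_add_self a)) v) = q v + f v a * (q a + 1) := by
  rw [transv_apply, hq, hq.smul hf, hf.smul_right, zmod2_mul_self]
  ring

/-- If `q a = 0` then `q + f(·, a)` is `q` composed with the transvection at `a`. -/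
theorem Polarizes.apply_transv_of_eq_zero {q : V → ZMod 2} {f : V → V → ZMod 2} (hq : Polarizes q f)
    (hf : IsBiadd f) (a : V) (ha : q a = 0) (v : V) :
    q (transv f hf a (hq.self hf a (vec_add_self a)) v) = q v + f v a := by
  rw [hq.apply_transv hf, ha, zero_add, mul_one]

end Transvection

section Plus

variable (m : ℕ)

/-- The polar form of the plus-type form over `ZMod 2`, written out. -/
def pf (u v : Fin m ⊕ Fin m → ZMod 2) : ZMod 2 :=
  ∑ i : Fin m, (u (.inl i) * v (.inr i) + u (.inr i) * v (.inl i))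

theorem plus_polar (u v : Fin m ⊕ Fin m → ZMod 2) :
    Cfsg.quadFormPlus m (ZMod 2) (u + v) - Cfsg.quadFormPlus m (ZMod 2) u
      - Cfsg.quadFormPlus m (ZMod 2) v = pf m u v := by
  unfold Cfsg.quadFormPlus pf
  rw [← Finset.sum_sub_distrib, ← Finset.sum_sub_distrib]
  apply Finset.sum_congr rfl
  intro i _
  simp only [Pi.add_apply]
  ring

theorem pf_isBiadd : IsBiadd (pf m) := by
  constructor
  · intro u u' v
    unfold pf
    rw [← Finset.sum_add_distrib]
    apply Finset.sum_congr rfl
    intro i _
    simp only [Pi.add_apply]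
    ring
  · intro u v v'
    unfold pf
    rw [← Finset.sum_add_distrib]
    apply Finset.sum_congr rfl
    intro i _
    simp only [Pi.add_apply]
    ring

theorem plus_polarizes : Polarizes (Cfsg.quadFormPlus m (ZMod 2)) (pf m) := by
  intro u v
  rw [← plus_polar]
  ring

theorem pf_nondeg : Nondeg (pf m) := by
  intro v hv
  obtain ⟨j, hj⟩ : ∃ j, v j ≠ 0 := by
    by_contra h
    push Not at h
    exact hv (funext h)
  rcases j with i | i
  · refine ⟨Pi.single (Sum.inr i) 1, ?_⟩
    unfold pf
    simp only [Pi.single_apply, Sum.inr.injEq, reduceCtorEq, if_false, zero_mul, zero_add]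
    simp only [ite_mul, one_mul, zero_mul, Finset.sum_ite_eq', Finset.mem_univ, if_true]
    exact (zmod2_ne_zero _).mp hj
  · refine ⟨Pi.single (Sum.inl i) 1, ?_⟩
    unfold pf
    simp only [Pi.single_apply, Sum.inl.injEq, reduceCtorEq, if_false, zero_mul, add_zero]
    simp only [ite_mul, one_mul, zero_mul, Finset.sum_ite_eq', Finset.mem_univ, if_true]
    exact (zmod2_ne_zero _).mp hj

/-- A function polarizing to the polar form of the plus form, in the shape used by the statements. -/
theorem polarizes_of_plus {q : (Fin m ⊕ Fin m → ZMod 2) → ZMod 2}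
    (hq : ∀ u v : (Fin m ⊕ Fin m → ZMod 2), q (u + v) = q u + q v +
      (Cfsg.quadFormPlus m (ZMod 2) (u + v) - Cfsg.quadFormPlus m (ZMod 2) u
        - Cfsg.quadFormPlus m (ZMod 2) v)) : Polarizes q (pf m) := by
  intro u v
  rw [hq u v, plus_polar]

end Plus

end Cfsg.Agent.Lib.Helper43
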