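import Mathlib
import Cfsg.Prelude.Def_Classical
import Cfsg.Agent.Lib.Helper43.F2Quad

/-!
Totally singular subspaces of quadratic functions with values in `ZMod 2`, and the sign sums of the
plus and minus forms.
-/

set_option autoImplicit false

namespace Cfsg.Agent.Lib.Helper43

section Subspace

variable {V : Type*} [AddCommGroup V] [Module (ZMod 2) V] [Fintype V]

/-- A totally singular subspace has at most `sqrt (card V)` elements, and in case of equality the sign sum
is its cardinality. -/
theorem ts_bound {q : V → ZMod 2} {f : V → V → ZMod 2} (hq : Polarizes q f)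
    (hf : IsBiadd f) (hnd : Nondeg f) (U : Submodule (ZMod 2) V) (hU : ∀ u ∈ U, q u = 0) :
    (Nat.card U) ^ 2 ≤ Nat.card V ∧ ((Nat.card U) ^ 2 = Nat.card V → signSum q = Nat.card U) := by
  classical
  have : Fintype U := Fintype.ofFinite U
  rw [Nat.card_eq_fintype_card, Nat.card_eq_fintype_card]
  set P : V → Prop := fun v => ∀ u ∈ U, f v u = 0 with hP
  set perp : Finset V := Finset.univ.filter P with hperp
  have hcU : 0 < Fintype.card U := Fintype.card_pos_iff.mpr ⟨0⟩
  have key1 : ∀ v, ∑ u : U, sgn (f v u) = if P v then (Fintype.card U : ℤ) else 0 := by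
    intro v
    split_ifs with h
    · have : ∀ u : U, sgn (f v u) = 1 := fun u => by rw [h u u.2, sgn_zero]
      simp [this]
    · rw [hP] at h
      push Not at h
      obtain ⟨u0, hu0, hu0'⟩ := h
      apply sum_sgn_eq_zero (V := U) (fun u => f v u) ⟨u0, hu0⟩
      intro u
      show f v ((u : V) + u0) = f v u + 1
      rw [hf.2, (zmod2_ne_zero _).mp hu0']
  have hts : ∀ u ∈ U, P u := by
    intro u hu u' hu'
    have h := hq u u'
    rw [hU u hu, hU u' hu', hU _ (U.add_mem hu hu'), zero_add, zero_add] at h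
    exact h.symm
  -- card U * card perp = card V
  have hA : (Fintype.card U : ℤ) * perp.card = Fintype.card V := by
    have h1 : ∑ v : V, ∑ u : U, sgn (f v u) = (Fintype.card U : ℤ) * perp.card := by
      rw [Finset.sum_congr rfl (fun v _ => key1 v), Finset.sum_ite, Finset.sum_const,
        Finset.sum_const_zero, add_zero, nsmul_eq_mul, mul_comm]
    have h2 : ∑ u : U, ∑ v : V, sgn (f v u) = Fintype.card V := by
      have hb : ∀ u : U, ∑ v : V, sgn (f v u) = if (u : V) = 0 then (Fintype.card V : ℤ) else 0 :=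
        fun u => sum_sgn_biadd hf hnd (u : V)
      rw [Finset.sum_congr rfl (fun u _ => hb u)]
      rw [Finset.sum_eq_single (0 : U)]
      · simp
      · intro b _ hb
        rw [if_neg]
        intro h
        exact hb (Subtype.ext h)
      · intro h
        exact absurd (Finset.mem_univ _) h
    rw [← h1, Finset.sum_comm, h2]
  have hAn : Fintype.card U * perp.card = Fintype.card V := by exact_mod_cast hA
  have hsub : Finset.univ.filter (fun v => v ∈ U) ⊆ perp := by
    intro v hv
    rw [Finset.mem_filter] at hv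
    rw [hperp, Finset.mem_filter]
    exact ⟨Finset.mem_univ _, hts v hv.2⟩
  have hcardU : Fintype.card U = (Finset.univ.filter (fun v => v ∈ U)).card :=
    Fintype.card_subtype _
  have hle : Fintype.card U ≤ perp.card := by
    rw [hcardU]
    exact Finset.card_le_card hsub
  constructor
  · rw [sq, ← hAn]
    exact Nat.mul_le_mul_left _ hle
  · intro heq
    have hperpcard : perp.card = Fintype.card U := by
      rw [sq, ← hAn] at heq
      exact (Nat.eq_of_mul_eq_mul_left hcU heq).symm
    have hperpeq : Finset.univ.filter (fun v => v ∈ U) = perp :=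
      Finset.eq_of_subset_of_card_le hsub (by rw [hperpcard, hcardU])
    -- B
    have h1 : ∑ u : U, ∑ v : V, sgn (q (v + u)) = (Fintype.card U : ℤ) * signSum q := by
      have : ∀ u : U, ∑ v : V, sgn (q (v + u)) = signSum q := by
        intro u
        exact Fintype.sum_equiv (Equiv.addRight (u : V)) _ _ (fun v => rfl)
      rw [Finset.sum_congr rfl (fun u _ => this u)]
      simp
    have h2 : ∑ v : V, ∑ u : U, sgn (q (v + u)) = (Fintype.card U : ℤ) * ∑ v ∈ perp, sgn (q v) := by
      have : ∀ v : V, ∑ u : U, sgn (q (v + u)) = sgn (q v) * (if P v then (Fintype.card U : ℤ) else 0) := by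
        intro v
        rw [← key1 v, Finset.mul_sum]
        apply Finset.sum_congr rfl
        intro u _
        rw [hq v u, hU u u.2, add_zero, sgn_add]
      rw [Finset.sum_congr rfl (fun v _ => this v), Finset.mul_sum, hperp, Finset.sum_filter]
      apply Finset.sum_congr rfl
      intro v _
      split_ifs <;> ring
    have h3 : ∑ v ∈ perp, sgn (q v) = Fintype.card U := by
      rw [← hperpeq, hcardU]
      have h1' : ∀ v ∈ Finset.univ.filter (fun v => v ∈ U), sgn (q v) = 1 := by
        intro v hv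
        rw [Finset.mem_filter] at hv
        rw [hU v hv.2, sgn_zero]
      rw [Finset.sum_congr rfl h1']
      simp
    rw [Finset.sum_comm, h2, h3] at h1
    have hcU' : (Fintype.card U : ℤ) ≠ 0 := by exact_mod_cast hcU.ne'
    exact (mul_left_cancel₀ hcU' h1).symm

theorem natCard_eq_two_pow (U : Submodule (ZMod 2) V) :
    Nat.card U = 2 ^ Module.finrank (ZMod 2) U := by
  rw [Module.natCard_eq_pow_finrank (K := ZMod 2), Nat.card_zmod]

/-- Dimension form of `ts_bound`. -/
theorem ts_finrank_le {q : V → ZMod 2} {f : V → V → ZMod 2} (hq : Polarizes q f)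
    (hf : IsBiadd f) (hnd : Nondeg f) (U : Submodule (ZMod 2) V) (hU : ∀ u ∈ U, q u = 0)
    (n : ℕ) (hV : Nat.card V = 2 ^ (2 * n)) :
    Module.finrank (ZMod 2) U ≤ n ∧ (Module.finrank (ZMod 2) U = n → signSum q = 2 ^ n) := by
  obtain ⟨h1, h2⟩ := ts_bound hq hf hnd U hU
  rw [natCard_eq_two_pow, hV, ← pow_mul] at h1
  rw [natCard_eq_two_pow, hV, ← pow_mul] at h2
  have h3 : Module.finrank (ZMod 2) U * 2 ≤ 2 * n :=
    (Nat.pow_le_pow_iff_right (by norm_num)).mp h1
  refine ⟨by omega, ?_⟩
  intro h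
  have := h2 (by rw [h, mul_comm])
  rw [this, h]
  norm_num

end Subspace

section PlusSign

variable (m : ℕ)

theorem natCard_V2 : Nat.card (Fin m ⊕ Fin m → ZMod 2) = 2 ^ (2 * m) := by
  rw [Nat.card_eq_fintype_card, Fintype.card_fun, ZMod.card, Fintype.card_sum, Fintype.card_fin, two_mul]

/-- The standard totally singular subspace of the plus form: vectors vanishing on the right half. -/
def plusTS : Submodule (ZMod 2) (Fin m ⊕ Fin m → ZMod 2) where
  carrier := {v | ∀ i, v (Sum.inr i) = 0}
  add_mem' := by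
    intro a b ha hb i
    show a (Sum.inr i) + b (Sum.inr i) = 0
    rw [ha i, hb i, add_zero]
  zero_mem' := by intro i; rfl
  smul_mem' := by
    intro c a ha i
    show c * a (Sum.inr i) = 0
    rw [ha i, mul_zero]

theorem plusTS_singular (u : Fin m ⊕ Fin m → ZMod 2) (hu : u ∈ plusTS m) :
    Cfsg.quadFormPlus m (ZMod 2) u = 0 := by
  unfold Cfsg.quadFormPlus
  apply Finset.sum_eq_zero
  intro i _
  rw [hu i, mul_zero]

theorem plusTS_finrank : Module.finrank (ZMod 2) (plusTS m) = m := by
  let φ : (Fin m → ZMod 2) →ₗ[ZMod 2] (Fin m ⊕ Fin m → ZMod 2) :=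
    { toFun := fun x => Sum.elim x 0
      map_add' := by
        intro x y
        funext j
        rcases j with j | j <;> simp
      map_smul' := by
        intro c x
        funext j
        rcases j with j | j <;> simp }
  have hinj : Function.Injective φ := by
    intro x y hxy
    funext i
    have := congrFun hxy (Sum.inl i)
    simpa [φ] using this
  have hrange : LinearMap.range φ = plusTS m := by
    ext v
    constructor
    · rintro ⟨x, rfl⟩ i
      rfl
    · intro hv
      refine ⟨fun i => v (Sum.inl i), ?_⟩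
      funext j
      rcases j with j | j
      · rfl
      · exact (hv j).symm
  rw [← hrange, LinearMap.finrank_range_of_inj hinj]
  simp

theorem signSum_plus : signSum (Cfsg.quadFormPlus m (ZMod 2)) = 2 ^ m :=
  (ts_finrank_le (plus_polarizes m) (pf_isBiadd m) (pf_nondeg m) (plusTS m) (plusTS_singular m) m
    (natCard_V2 m)).2 (plusTS_finrank m)

/-- Totally singular subspaces of the plus form have dimension at most `m`. -/
theorem plus_ts_finrank_le (U : Submodule (ZMod 2) (Fin m ⊕ Fin m → ZMod 2))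
    (hU : ∀ u ∈ U, Cfsg.quadFormPlus m (ZMod 2) u = 0) : Module.finrank (ZMod 2) U ≤ m :=
  (ts_finrank_le (plus_polarizes m) (pf_isBiadd m) (pf_nondeg m) U hU m (natCard_V2 m)).1

end PlusSign

section Minus

variable (n : ℕ)

/-- Reindexing of the coordinates of the minus form of dimension `2n+2` as those of the plus form of
dimension `2(n+1)`: the anisotropic plane goes to the first hyperbolic pair. -/
def minusIdx : (Fin n ⊕ Fin n) ⊕ Fin 2 ≃ Fin (n + 1) ⊕ Fin (n + 1) where
  toFun := fun j => match j with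
    | Sum.inl (Sum.inl i) => Sum.inl i.succ
    | Sum.inl (Sum.inr i) => Sum.inr i.succ
    | Sum.inr k => if k = 0 then Sum.inl 0 else Sum.inr 0
  invFun := fun j => match j with
    | Sum.inl i => Fin.cases (Sum.inr 0) (fun i' => Sum.inl (Sum.inl i')) i
    | Sum.inr i => Fin.cases (Sum.inr 1) (fun i' => Sum.inl (Sum.inr i')) i
  left_inv := by
    rintro ((i | i) | k)
    · simp
    · simp
    · fin_cases k <;> simp
  right_inv := by
    rintro (i | i)
    · refine Fin.cases ?_ (fun i' => ?_) i <;> simp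
    · refine Fin.cases ?_ (fun i' => ?_) i <;> simp

/-- The linear equivalence of coordinate spaces induced by `minusIdx`. -/
def minusEquiv : (Fin (n + 1) ⊕ Fin (n + 1) → ZMod 2) ≃ₗ[ZMod 2] ((Fin n ⊕ Fin n) ⊕ Fin 2 → ZMod 2) :=
  LinearEquiv.funCongrLeft (ZMod 2) (ZMod 2) (minusIdx n)

theorem minusEquiv_apply (v : Fin (n + 1) ⊕ Fin (n + 1) → ZMod 2) (j : (Fin n ⊕ Fin n) ⊕ Fin 2) :
    minusEquiv n v j = v (minusIdx n j) := rfl

/-- The vector `e₀ + f₀`. -/
def w0 : Fin (n + 1) ⊕ Fin (n + 1) → ZMod 2 := fun j => match j with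
  | Sum.inl i => if i = 0 then 1 else 0
  | Sum.inr i => if i = 0 then 1 else 0

/-- The minus form transported to the coordinates of the plus form. -/
def minusQ : (Fin (n + 1) ⊕ Fin (n + 1) → ZMod 2) → ZMod 2 :=
  fun v => Cfsg.quadFormPlus (n + 1) (ZMod 2) v + pf (n + 1) v (w0 n)

theorem plus_w0 : Cfsg.quadFormPlus (n + 1) (ZMod 2) (w0 n) = 1 := by
  unfold Cfsg.quadFormPlus
  rw [Fin.sum_univ_succ]
  simp [w0, Fin.succ_ne_zero]

theorem pf_w0 (v : Fin (n + 1) ⊕ Fin (n + 1) → ZMod 2) :
    pf (n + 1) v (w0 n) = v (Sum.inl 0) + v (Sum.inr 0) := by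
  unfold pf
  rw [Fin.sum_univ_succ]
  simp [w0, Fin.succ_ne_zero]

theorem minus_eq (v : Fin (n + 1) ⊕ Fin (n + 1) → ZMod 2) :
    Cfsg.quadFormMinus n (ZMod 2) 1 1 (minusEquiv n v) = minusQ n v := by
  unfold minusQ
  rw [pf_w0]
  unfold Cfsg.quadFormMinus Cfsg.quadFormPlus
  rw [Fin.sum_univ_succ]
  simp only [minusEquiv_apply]
  have e1 : ∀ i : Fin n, minusIdx n (Sum.inl (Sum.inl i)) = Sum.inl i.succ := fun i => rfl
  have e2 : ∀ i : Fin n, minusIdx n (Sum.inl (Sum.inr i)) = Sum.inr i.succ := fun i => rfl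
  have e3 : minusIdx n (Sum.inr 0) = Sum.inl 0 := rfl
  have e4 : minusIdx n (Sum.inr 1) = Sum.inr 0 := rfl
  simp only [e1, e2, e3, e4, one_mul]
  have h1 : v (Sum.inl 0) ^ 2 = v (Sum.inl 0) := by rw [sq, zmod2_mul_self]
  have h2 : v (Sum.inr 0) ^ 2 = v (Sum.inr 0) := by rw [sq, zmod2_mul_self]
  rw [h1, h2]
  ring

theorem minusQ_polarizes : Polarizes (minusQ n) (pf (n + 1)) := by
  intro u v
  unfold minusQ
  rw [plus_polarizes (n + 1) u v, (pf_isBiadd (n + 1)).1]
  ring

theorem signSum_minusQ : signSum (minusQ n) = -2 ^ (n + 1) := by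
  have h := signSum_shift (plus_polarizes (n + 1)) (w0 n)
  rw [plus_w0, sgn_one, signSum_plus] at h
  unfold minusQ
  rw [h]
  ring

theorem natCard_minus : Nat.card ((Fin n ⊕ Fin n) ⊕ Fin 2 → ZMod 2) = 2 ^ (2 * (n + 1)) := by
  rw [Nat.card_eq_fintype_card, Fintype.card_fun, ZMod.card, Fintype.card_sum, Fintype.card_sum,
    Fintype.card_fin, Fintype.card_fin]
  congr 1
  ring

/-- The sign sum of the minus form. -/
theorem signSum_minus : signSum (Cfsg.quadFormMinus n (ZMod 2) 1 1) = -2 ^ (n + 1) := by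
  rw [← signSum_minusQ, ← signSum_comp (Cfsg.quadFormMinus n (ZMod 2) 1 1) (minusEquiv n).toEquiv]
  congr 1
  funext v
  exact minus_eq n v

/-- Totally singular subspaces of the minus form of dimension `2n+2` have dimension at most `n`. -/
theorem minus_ts_finrank_le (U : Submodule (ZMod 2) ((Fin n ⊕ Fin n) ⊕ Fin 2 → ZMod 2))
    (hU : ∀ u ∈ U, Cfsg.quadFormMinus n (ZMod 2) 1 1 u = 0) : Module.finrank (ZMod 2) U ≤ n := by
  set U' : Submodule (ZMod 2) (Fin (n + 1) ⊕ Fin (n + 1) → ZMod 2) :=
    U.map ((minusEquiv n).symm : ((Fin n ⊕ Fin n) ⊕ Fin 2 → ZMod 2) →ₗ[ZMod 2] _) with hU'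
  have hfr : Module.finrank (ZMod 2) U' = Module.finrank (ZMod 2) U :=
    LinearEquiv.finrank_map_eq (minusEquiv n).symm U
  have hts : ∀ u ∈ U', minusQ n u = 0 := by
    rintro _ ⟨u, hu, rfl⟩
    rw [← minus_eq]
    simpa using hU u hu
  obtain ⟨h1, h2⟩ := ts_finrank_le (minusQ_polarizes n) (pf_isBiadd (n + 1)) (pf_nondeg (n + 1)) U' hts
    (n + 1) (natCard_V2 (n + 1))
  rw [hfr] at h1 h2
  by_contra hcon
  have h3 : Module.finrank (ZMod 2) U = n + 1 := by omega
  have h4 := h2 h3
  rw [signSum_minusQ] at h4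
  have h5 : (0 : ℤ) < 2 ^ (n + 1) := by positivity
  linarith

/-- The standard totally singular subspace of the minus form. -/
def minusTS : Submodule (ZMod 2) ((Fin n ⊕ Fin n) ⊕ Fin 2 → ZMod 2) where
  carrier := {v | (∀ i, v (Sum.inl (Sum.inr i)) = 0) ∧ ∀ k, v (Sum.inr k) = 0}
  add_mem' := by
    rintro a b ⟨ha1, ha2⟩ ⟨hb1, hb2⟩
    refine ⟨fun i => ?_, fun k => ?_⟩
    · show a _ + b _ = 0
      rw [ha1 i, hb1 i, add_zero]
    · show a _ + b _ = 0
      rw [ha2 k, hb2 k, add_zero]
  zero_mem' := ⟨fun i => rfl, fun k => rfl⟩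
  smul_mem' := by
    rintro c a ⟨ha1, ha2⟩
    refine ⟨fun i => ?_, fun k => ?_⟩
    · show c * a _ = 0
      rw [ha1 i, mul_zero]
    · show c * a _ = 0
      rw [ha2 k, mul_zero]

theorem minusTS_singular (u : (Fin n ⊕ Fin n) ⊕ Fin 2 → ZMod 2) (hu : u ∈ minusTS n) :
    Cfsg.quadFormMinus n (ZMod 2) 1 1 u = 0 := by
  unfold Cfsg.quadFormMinus
  rw [hu.2 0, hu.2 1]
  have : ∑ i : Fin n, u (Sum.inl (Sum.inl i)) * u (Sum.inl (Sum.inr i)) = 0 := by
    apply Finset.sum_eq_zero
    intro i _
    rw [hu.1 i, mul_zero]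
  rw [this]
  ring

theorem minusTS_finrank : Module.finrank (ZMod 2) (minusTS n) = n := by
  let φ : (Fin n → ZMod 2) →ₗ[ZMod 2] ((Fin n ⊕ Fin n) ⊕ Fin 2 → ZMod 2) :=
    { toFun := fun x => Sum.elim (Sum.elim x 0) 0
      map_add' := by
        intro x y
        funext j
        rcases j with (j | j) | j <;> simp
      map_smul' := by
        intro c x
        funext j
        rcases j with (j | j) | j <;> simp }
  have hinj : Function.Injective φ := by
    intro x y hxy
    funext i
    have := congrFun hxy (Sum.inl (Sum.inl i))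
    simpa [φ] using this
  have hrange : LinearMap.range φ = minusTS n := by
    ext v
    constructor
    · rintro ⟨x, rfl⟩
      exact ⟨fun i => rfl, fun k => rfl⟩
    · intro hv
      refine ⟨fun i => v (Sum.inl (Sum.inl i)), ?_⟩
      funext j
      rcases j with (j | j) | j
      · rfl
      · exact (hv.1 j).symm
      · exact (hv.2 j).symm
  rw [← hrange, LinearMap.finrank_range_of_inj hinj]
  simp

end Minus

end Cfsg.Agent.Lib.Helper43
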