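import Mathlib
import Cfsg.Prelude.Def_Classical
import Cfsg.Agent.Lib.Helper43.OrthTower

/-!
# The matrix isometry group as an abstract isometry group, and its action on singular vectors
-/

set_option autoImplicit false

namespace Cfsg.Agent.Lib.Helper43

open Module

section Iso

variable {F : Type*} [Field F] {ι : Type} [Fintype ι] [DecidableEq ι]

/-- `GL` as linear automorphisms. -/
def glLinEquiv (F : Type*) [Field F] (ι : Type) [Fintype ι] [DecidableEq ι] :
    Matrix.GeneralLinearGroup ι F ≃* ((ι → F) ≃ₗ[F] (ι → F)) :=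
  Matrix.GeneralLinearGroup.toLin.trans (LinearMap.GeneralLinearGroup.generalLinearEquiv F (ι → F))

theorem glLinEquiv_apply (g : Matrix.GeneralLinearGroup ι F) (v : ι → F) :
    glLinEquiv F ι g v = (g : Matrix ι ι F).mulVec v := rfl

/-- The matrix isometry group is isomorphic to the abstract one. -/
noncomputable def isoMulEquiv (Q₀ : (ι → F) → F) (Q : QuadraticForm F (ι → F))
    (h : ∀ v, Q v = Q₀ v) : ↥(Cfsg.isometryGroup F Q₀) ≃* ↥(isoGroup Q) :=
  ((glLinEquiv F ι).subgroupMap (Cfsg.isometryGroup F Q₀)).trans
    (MulEquiv.subgroupCongr (by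
      ext x
      constructor
      · rintro ⟨g, hg, rfl⟩
        intro v
        show Q ((glLinEquiv F ι) g v) = Q v
        rw [glLinEquiv_apply, h, h]
        exact hg v v
      · intro hx
        refine ⟨(glLinEquiv F ι).symm x, ?_, (glLinEquiv F ι).apply_symm_apply x⟩
        intro u _
        have h1 := hx u
        rw [h, h] at h1
        have h2 : (glLinEquiv F ι) ((glLinEquiv F ι).symm x) u = x u := by
          rw [(glLinEquiv F ι).apply_symm_apply]
        rw [glLinEquiv_apply] at h2
        show Q₀ ((((glLinEquiv F ι).symm x : Matrix.GeneralLinearGroup ι F) : Matrix ι ι F).mulVec u)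
          = Q₀ u
        rw [h2]
        exact h1))

end Iso

section Sing

variable {F : Type*} [Field F] {V : Type*} [AddCommGroup V] [Module F V]

/-- The action of the isometry group on the nonzero singular vectors. -/
def singPerm (Q : QuadraticForm F V) : ↥(isoGroup Q) →* Equiv.Perm {v : V // v ≠ 0 ∧ Q v = 0} where
  toFun g :=
    { toFun := fun v => ⟨g.1 v.1, fun h0 => v.2.1 (g.1.injective (h0.trans (map_zero g.1).symm)),
        by rw [g.2]; exact v.2.2⟩
      invFun := fun v => ⟨g.1.symm v.1,
        fun h0 => v.2.1 (g.1.symm.injective (h0.trans (map_zero g.1.symm).symm)),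
        by rw [← g.2 (g.1.symm v.1), g.1.apply_symm_apply]; exact v.2.2⟩
      left_inv := fun v => Subtype.ext (g.1.symm_apply_apply v.1)
      right_inv := fun v => Subtype.ext (g.1.apply_symm_apply v.1) }
  map_one' := Equiv.ext fun _ => rfl
  map_mul' _ _ := Equiv.ext fun _ => rfl

theorem singPerm_apply (Q : QuadraticForm F V) (g : isoGroup Q) (v : {v : V // v ≠ 0 ∧ Q v = 0}) :
    ((singPerm Q g) v : V) = g.1 v.1 := rfl

open Classical in
/-- The number of nonzero singular vectors. -/
theorem card_sing [Fintype V] (Q : QuadraticForm F V) :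
    Nat.card {v : V // v ≠ 0 ∧ Q v = 0} = zeros Q - 1 := by
  rw [Nat.card_eq_fintype_card, Fintype.card_subtype, zeros_eq_card_filter]
  have : (Finset.univ.filter (fun e : V => e ≠ 0 ∧ Q e = 0))
      = (Finset.univ.filter (fun e : V => Q e = 0)).erase 0 := by
    ext x
    simp
  rw [this, Finset.card_erase_of_mem]
  simp

end Sing

end Cfsg.Agent.Lib.Helper43
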