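import Mathlib
import Cfsg.Prelude.Def_Classical
import Cfsg.Agent.Lib.Helper43.OrthOrders
import Cfsg.Agent.Lib.Helper43.OrthIso
import Cfsg.Agent.Lib.Helper54.Dihedral

/-!
# `GO⁺₂(q)` is dihedral of order `2(q-1)`
-/

set_option autoImplicit false

namespace Cfsg.Agent.Lib.Helper43

section GO2

variable {F : Type*} [Field F]

/-- `diag(u, u⁻¹)` on `F²`. -/
def dEquiv (u : Fˣ) : (Fin 1 ⊕ Fin 1 → F) ≃ₗ[F] (Fin 1 ⊕ Fin 1 → F) where
  toFun v := Sum.elim (fun i => (u : F) * v (.inl i)) (fun i => ((u⁻¹ : Fˣ) : F) * v (.inr i))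
  map_add' v w := by
    funext i
    rcases i with i | i
    · simp [mul_add]
    · simp [mul_add]
  map_smul' c v := by
    funext i
    rcases i with i | i
    · simp [mul_left_comm]
    · simp [mul_left_comm]
  invFun v := Sum.elim (fun i => ((u⁻¹ : Fˣ) : F) * v (.inl i)) (fun i => (u : F) * v (.inr i))
  left_inv v := by
    funext i
    rcases i with i | i
    · simp
    · simp
  right_inv v := by
    funext i
    rcases i with i | i
    · simp
    · simp

theorem dEquiv_inl (u : Fˣ) (v : Fin 1 ⊕ Fin 1 → F) (i : Fin 1) :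
    dEquiv u v (.inl i) = (u : F) * v (.inl i) := rfl

theorem dEquiv_inr (u : Fˣ) (v : Fin 1 ⊕ Fin 1 → F) (i : Fin 1) :
    dEquiv u v (.inr i) = ((u⁻¹ : Fˣ) : F) * v (.inr i) := rfl

theorem dEquiv_mem (u : Fˣ) : dEquiv u ∈ isoGroup (qPlus F 1) := by
  intro v
  rw [qPlus_apply, qPlus_apply]
  show ∑ i : Fin 1, dEquiv u v (.inl i) * dEquiv u v (.inr i) = ∑ i : Fin 1, v (.inl i) * v (.inr i)
  refine Finset.sum_congr rfl fun i _ => ?_
  rw [dEquiv_inl, dEquiv_inr]
  have : (u : F) * ((u⁻¹ : Fˣ) : F) = 1 := by rw [← Units.val_mul, mul_inv_cancel, Units.val_one]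
  linear_combination (v (.inl i) * v (.inr i)) * this

/-- `u ↦ diag(u, u⁻¹)` as a homomorphism into the isometry group. -/
def dHom : Fˣ →* ↥(isoGroup (qPlus F 1)) where
  toFun u := ⟨dEquiv u, dEquiv_mem u⟩
  map_one' := by
    apply Subtype.ext
    apply LinearEquiv.ext
    intro v
    funext i
    rcases i with i | i
    · show dEquiv 1 v (.inl i) = v (.inl i)
      rw [dEquiv_inl, Units.val_one, one_mul]
    · show dEquiv 1 v (.inr i) = v (.inr i)
      rw [dEquiv_inr, inv_one, Units.val_one, one_mul]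
  map_mul' a b := by
    apply Subtype.ext
    apply LinearEquiv.ext
    intro v
    funext i
    rcases i with i | i
    · show dEquiv (a * b) v (.inl i) = dEquiv a (dEquiv b v) (.inl i)
      rw [dEquiv_inl, dEquiv_inl, dEquiv_inl, Units.val_mul, mul_assoc]
    · show dEquiv (a * b) v (.inr i) = dEquiv a (dEquiv b v) (.inr i)
      rw [dEquiv_inr, dEquiv_inr, dEquiv_inr, mul_inv, Units.val_mul, mul_assoc]

theorem dHom_apply_inl (u : Fˣ) (v : Fin 1 ⊕ Fin 1 → F) (i : Fin 1) :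
    (dHom u).1 v (.inl i) = (u : F) * v (.inl i) := rfl

theorem dHom_apply_inr (u : Fˣ) (v : Fin 1 ⊕ Fin 1 → F) (i : Fin 1) :
    (dHom u).1 v (.inr i) = ((u⁻¹ : Fˣ) : F) * v (.inr i) := rfl

theorem dHom_injective : Function.Injective (dHom (F := F)) := by
  intro a b hab
  have h1 := dHom_apply_inl a (fun _ => 1) 0
  rw [hab, dHom_apply_inl] at h1
  apply Units.ext
  simpa using h1.symm

/-- The swap of the two coordinates. -/
def sEquiv (F : Type*) [Field F] : (Fin 1 ⊕ Fin 1 → F) ≃ₗ[F] (Fin 1 ⊕ Fin 1 → F) :=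
  LinearEquiv.funCongrLeft F F (Equiv.sumComm (Fin 1) (Fin 1))

theorem sEquiv_inl (v : Fin 1 ⊕ Fin 1 → F) (i : Fin 1) : sEquiv F v (.inl i) = v (.inr i) := rfl

theorem sEquiv_inr (v : Fin 1 ⊕ Fin 1 → F) (i : Fin 1) : sEquiv F v (.inr i) = v (.inl i) := rfl

theorem sEquiv_mem : sEquiv F ∈ isoGroup (qPlus F 1) := by
  intro v
  rw [qPlus_apply, qPlus_apply]
  show ∑ i : Fin 1, sEquiv F v (.inl i) * sEquiv F v (.inr i) = ∑ i : Fin 1, v (.inl i) * v (.inr i)
  refine Finset.sum_congr rfl fun i _ => ?_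
  rw [sEquiv_inl, sEquiv_inr, mul_comm]

/-- `GO⁺₂(q)`, abstractly, is dihedral of order `2(q-1)`. -/
theorem isoGroup_qPlus_one_dihedral [Fintype F] :
    Nonempty (↥(isoGroup (qPlus F 1)) ≃* DihedralGroup (Fintype.card F - 1)) := by
  classical
  have hq : 2 ≤ Fintype.card F := Fintype.one_lt_card
  have hcard : Nat.card ↥(isoGroup (qPlus F 1)) = 2 * (Fintype.card F - 1) := by
    show isoCard (qPlus F 1) = _
    rw [isoCard_qPlus, isoCard_plusTower 0]
    simp
  have : Finite ↥(isoGroup (qPlus F 1)) :=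
    Nat.finite_of_card_ne_zero (by rw [hcard]; omega)
  obtain ⟨ζ, hζ⟩ := IsCyclic.exists_generator (α := Fˣ)
  have hordζ : orderOf ζ = Fintype.card F - 1 := by
    rw [orderOf_eq_card_of_forall_mem_zpowers hζ, Nat.card_eq_fintype_card, Fintype.card_units]
  let x : ↥(isoGroup (qPlus F 1)) := ⟨sEquiv F, sEquiv_mem⟩
  refine Cfsg.Agent.Lib.Helper54.nonempty_mulEquiv_dihedralGroup (x := x) (a := dHom ζ) ?_ ?_ hcard
    ?_ ?_
  · apply Subtype.ext
    apply LinearEquiv.ext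
    intro v
    funext i
    rcases i with i | i <;> rfl
  · rw [orderOf_injective dHom dHom_injective, hordζ]
  · intro hx
    obtain ⟨k, hk⟩ := Subgroup.mem_zpowers_iff.mp hx
    rw [← map_zpow] at hk
    have h1 := dHom_apply_inl (ζ ^ k) (Pi.single (Sum.inl 0) 1) 0
    rw [hk] at h1
    have h2 : x.1 (Pi.single (Sum.inl 0) 1) (Sum.inl 0) = 0 := by
      show sEquiv F (Pi.single (Sum.inl 0) 1) (Sum.inl 0) = 0
      rw [sEquiv_inl]
      simp
    rw [h2] at h1
    simp at h1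
    exact (zpow_ne_zero k (Units.ne_zero ζ)) h1.symm
  · rw [mul_inv_eq_iff_eq_mul, ← map_inv]
    apply Subtype.ext
    apply LinearEquiv.ext
    intro v
    funext i
    rcases i with i | i
    · show sEquiv F (dEquiv ζ v) (.inl i) = dEquiv ζ⁻¹ (sEquiv F v) (.inl i)
      rw [sEquiv_inl, dEquiv_inr, dEquiv_inl, sEquiv_inl]
    · show sEquiv F (dEquiv ζ v) (.inr i) = dEquiv ζ⁻¹ (sEquiv F v) (.inr i)
      rw [sEquiv_inr, dEquiv_inl, dEquiv_inr, sEquiv_inr, inv_inv]

end GO2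

end Cfsg.Agent.Lib.Helper43
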