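import Mathlib
import Cfsg.Prelude.Def_Classical
import Cfsg.Agent.Lib.Helper43.OrthOrders
import Cfsg.Agent.Lib.Helper43.OrthIso

/-!
# `O⁺₆(2) ≅ S₈` and `Ω⁺₆(2) ≅ A₈`, given an embedding `S₈ → O⁺₆(2)`
-/

set_option autoImplicit false

namespace Cfsg.Agent.Lib.Helper43

section BaseChange

variable {R F : Type*} [Field R] [Field F] {ι : Type} [Fintype ι] [DecidableEq ι]

/-- A ring isomorphism compatible with two "forms" induces an injective hom of isometry groups. -/
theorem exists_isometryGroup_map (e : R ≃+* F) (Q₀ : (ι → R) → R) (Q₁ : (ι → F) → F)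
    (h : ∀ v : ι → R, Q₁ (fun i => e (v i)) = e (Q₀ v)) :
    ∃ ψ : ↥(Cfsg.isometryGroup R Q₀) →* ↥(Cfsg.isometryGroup F Q₁), Function.Injective ψ := by
  have hmem : ∀ g : ↥(Cfsg.isometryGroup R Q₀),
      Matrix.GeneralLinearGroup.map (e : R →+* F) g.1 ∈ Cfsg.isometryGroup F Q₁ := by
    intro g u _
    show Q₁ (((Matrix.GeneralLinearGroup.map (e : R →+* F) g.1 : Matrix.GeneralLinearGroup ι F) :
      Matrix ι ι F).mulVec u) = Q₁ u
    have hu : u = fun i => e (e.symm (u i)) := by
      funext i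
      rw [e.apply_symm_apply]
    have h1 : ((Matrix.GeneralLinearGroup.map (e : R →+* F) g.1 : Matrix.GeneralLinearGroup ι F) :
        Matrix ι ι F).mulVec u
        = fun i => e (((g.1 : Matrix.GeneralLinearGroup ι R) : Matrix ι ι R).mulVec
            (fun j => e.symm (u j)) i) := by
      funext i
      have := RingHom.map_mulVec (e : R →+* F) ((g.1 : Matrix.GeneralLinearGroup ι R) : Matrix ι ι R)
        (fun j => e.symm (u j)) i
      rw [RingHom.coe_coe] at this
      rw [this]
      congr 1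
    rw [h1, h]
    have h2 := g.2 (fun j => e.symm (u j)) (fun j => e.symm (u j))
    have h3 : Q₀ (((g.1 : Matrix.GeneralLinearGroup ι R) : Matrix ι ι R).mulVec
        (fun j => e.symm (u j))) = Q₀ (fun j => e.symm (u j)) := h2
    rw [h3, ← h, ← hu]
  refine ⟨((Matrix.GeneralLinearGroup.map (e : R →+* F)).comp
    (Cfsg.isometryGroup R Q₀).subtype).codRestrict (Cfsg.isometryGroup F Q₁) hmem, ?_⟩
  intro a b hab
  have h1 : Matrix.GeneralLinearGroup.map (e : R →+* F) a.1
      = Matrix.GeneralLinearGroup.map (e : R →+* F) b.1 := congrArg Subtype.val hab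
  apply Subtype.ext
  apply Units.ext
  have h2 : ((Matrix.GeneralLinearGroup.map (e : R →+* F) a.1 : Matrix.GeneralLinearGroup ι F) :
      Matrix ι ι F) = ((Matrix.GeneralLinearGroup.map (e : R →+* F) b.1 :
        Matrix.GeneralLinearGroup ι F) : Matrix ι ι F) := by rw [h1]
  ext i j
  have h3 := congrFun (congrFun h2 i) j
  exact e.injective h3

end BaseChange

section SixTwo

variable {F : Type*} [Field F] [Fintype F]

theorem card_isometryGroup_plus_three (hF : Fintype.card F = 2) :
    Nat.card (Cfsg.isometryGroup F (Cfsg.quadFormPlus 3 F)) = 40320 := by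
  classical
  rw [card_isometryGroup_eq (Cfsg.quadFormPlus 3 F) (qPlus F 3) (qPlus_apply 3), isoCard_qPlus,
    isoCard_plusTower 2, hF]
  norm_num [Finset.prod_range_succ]

/-- `O⁺₆(2) ≅ S₈`, given an embedding of `S₈` in `O⁺₆(𝔽₂)`. -/
theorem isometryGroup_plus_three_equiv (hF : Fintype.card F = 2)
    (h : ∃ φ : Equiv.Perm (Fin 8) →* ↥(Cfsg.isometryGroup (ZMod 2) (Cfsg.quadFormPlus 3 (ZMod 2))),
      Function.Injective φ) :
    Nonempty (↥(Cfsg.isometryGroup F (Cfsg.quadFormPlus 3 F)) ≃* Equiv.Perm (Fin 8)) := by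
  classical
  obtain ⟨φ, hφ⟩ := h
  have : Fact (Nat.Prime 2) := ⟨Nat.prime_two⟩
  let e : ZMod 2 ≃+* F := ZMod.ringEquivOfPrime F Nat.prime_two hF
  obtain ⟨ψ, hψ⟩ := exists_isometryGroup_map e (Cfsg.quadFormPlus 3 (ZMod 2)) (Cfsg.quadFormPlus 3 F)
    (by
      intro v
      show ∑ i : Fin 3, e (v (.inl i)) * e (v (.inr i)) = e (∑ i : Fin 3, v (.inl i) * v (.inr i))
      rw [map_sum]
      exact Finset.sum_congr rfl fun i _ => (map_mul e _ _).symm)
  have : Finite ↥(Cfsg.isometryGroup F (Cfsg.quadFormPlus 3 F)) :=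
    Nat.finite_of_card_ne_zero (by rw [card_isometryGroup_plus_three hF]; norm_num)
  have hinj : Function.Injective (ψ.comp φ) := hψ.comp hφ
  have hbij : Function.Bijective (ψ.comp φ) :=
    hinj.bijective_of_nat_card_le (by
      rw [card_isometryGroup_plus_three hF, Nat.card_perm, Nat.card_eq_fintype_card,
        Fintype.card_fin]
      decide)
  exact ⟨(MulEquiv.ofBijective (ψ.comp φ) hbij).symm⟩

end SixTwo

section Alt

/-- Transport of the commutator subgroup along an isomorphism with `S₈`. -/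
theorem commutator_of_equiv_perm {G : Type*} [Group G] (e : G ≃* Equiv.Perm (Fin 8)) :
    (commutator G).index = 2 ∧ Nonempty (↥(commutator G) ≃* alternatingGroup (Fin 8)) := by
  have hmap : (commutator G).map (e : G →* Equiv.Perm (Fin 8)) = alternatingGroup (Fin 8) := by
    rw [commutator_def, Subgroup.map_commutator,
      Subgroup.map_top_of_surjective (e : G →* Equiv.Perm (Fin 8)) e.surjective, ← commutator_def]
    exact alternatingGroup.commutator_perm_eq (by
      rw [Nat.card_eq_fintype_card, Fintype.card_fin]; norm_num)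
  constructor
  · rw [← Subgroup.index_map_equiv (commutator G) e, hmap]
    exact alternatingGroup.index_eq_two
  · exact ⟨(e.subgroupMap (commutator G)).trans (MulEquiv.subgroupCongr hmap)⟩

/-- `Ω⁺₆(2) ≅ A₈` of index two, given an embedding of `S₈` in `O⁺₆(𝔽₂)`. -/
theorem omega_plus_three_equiv
    (h : ∃ φ : Equiv.Perm (Fin 8) →* ↥(Cfsg.isometryGroup (ZMod 2) (Cfsg.quadFormPlus 3 (ZMod 2))),
      Function.Injective φ) :
    (Cfsg.Omega (ZMod 2) (Cfsg.quadFormPlus 3 (ZMod 2))).index = 2 ∧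
    Nonempty (↥(Cfsg.Omega (ZMod 2) (Cfsg.quadFormPlus 3 (ZMod 2))) ≃* alternatingGroup (Fin 8)) := by
  obtain ⟨e⟩ := isometryGroup_plus_three_equiv (F := ZMod 2) (by decide) h
  exact commutator_of_equiv_perm e

end Alt

end Cfsg.Agent.Lib.Helper43
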