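import Mathlib

/-!
# Abstract recognition of `Ω / Z(Ω)` as `S / Z(S)`
-/

set_option autoImplicit false

namespace Cfsg.Agent.Lib.Helper43

section Abstract

/-- If `φ : S → Ω` is onto and the elements of `S` which are central modulo `ker φ` are central,
then `Ω / Z(Ω) ≅ S / Z(S)`. -/
theorem quotient_center_equiv_of_surjective {S Ω : Type*} [Group S] [Group Ω] (φ : S →* Ω)
    (hφ : Function.Surjective φ)
    (hc : ∀ s : S, (∀ t : S, φ (s * t) = φ (t * s)) → s ∈ Subgroup.center S) :
    Nonempty (Ω ⧸ Subgroup.center Ω ≃* S ⧸ Subgroup.center S) := by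
  let ψ : S →* Ω ⧸ Subgroup.center Ω := (QuotientGroup.mk' (Subgroup.center Ω)).comp φ
  have hψ : Function.Surjective ψ := (QuotientGroup.mk'_surjective _).comp hφ
  have hker : ψ.ker = Subgroup.center S := by
    ext s
    rw [MonoidHom.mem_ker]
    show ((φ s : Ω) : Ω ⧸ Subgroup.center Ω) = 1 ↔ _
    rw [QuotientGroup.eq_one_iff, Subgroup.mem_center_iff]
    constructor
    · intro h
      exact hc s (fun t => by rw [map_mul, map_mul, h (φ t)])
    · intro h ω
      obtain ⟨t, rfl⟩ := hφ ω
      rw [← map_mul, ← map_mul, Subgroup.mem_center_iff.mp h t]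
  exact ⟨((QuotientGroup.quotientMulEquivOfEq hker).symm.trans
    (QuotientGroup.quotientKerEquivOfSurjective ψ hψ)).symm⟩

/-- A homomorphism into a finite group `O` with image in the commutator subgroup and large enough
image induces `O' / Z(O') ≅ S / Z(S)`. -/
theorem commutator_quotient_center_equiv {O S : Type*} [Group O] [Group S] [Finite O] [Finite S]
    (φ : S →* O) (himg : ∀ s, φ s ∈ commutator O)
    (hcard : Nat.card ↥(commutator O) * Nat.card ↥φ.ker ≤ Nat.card S)
    (hc : ∀ s : S, (∀ t : S, φ (s * t) = φ (t * s)) → s ∈ Subgroup.center S) :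
    Nonempty (↥(commutator O) ⧸ Subgroup.center ↥(commutator O) ≃* S ⧸ Subgroup.center S) := by
  let φ' : S →* ↥(commutator O) := φ.codRestrict (commutator O) himg
  have hker : φ'.ker = φ.ker := by
    ext s
    rw [MonoidHom.mem_ker, MonoidHom.mem_ker]
    constructor
    · intro h
      exact congrArg Subtype.val h
    · intro h
      exact Subtype.ext h
  have h1 : Nat.card S = Nat.card ↥φ'.range * Nat.card ↥φ.ker := by
    rw [Subgroup.card_eq_card_quotient_mul_card_subgroup φ'.ker,
      Nat.card_congr (QuotientGroup.quotientKerEquivRange φ').toEquiv, hker]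
  have hkpos : 0 < Nat.card ↥φ.ker := Nat.card_pos
  have h2 : Nat.card ↥(commutator O) ≤ Nat.card ↥φ'.range := by
    rw [h1] at hcard
    exact Nat.le_of_mul_le_mul_right hcard hkpos
  have h3 : φ'.range = ⊤ := Subgroup.eq_top_of_le_card _ h2
  have hsurj : Function.Surjective φ' := MonoidHom.range_eq_top.mp h3
  refine quotient_center_equiv_of_surjective φ' hsurj ?_
  intro s hs
  refine hc s fun t => ?_
  exact congrArg Subtype.val (hs t)

/-- Variant with an arbitrary quotient `π : S → P` whose kernel is the set of elements central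
modulo `ker φ`. -/
theorem quotient_center_equiv_of_surjective' {S Ω P : Type*} [Group S] [Group Ω] [Group P]
    (φ : S →* Ω) (hφ : Function.Surjective φ) (π : S →* P) (hπ : Function.Surjective π)
    (hker : ∀ s : S, π s = 1 ↔ ∀ t : S, φ (s * t) = φ (t * s)) :
    Nonempty (Ω ⧸ Subgroup.center Ω ≃* P) := by
  let ψ : S →* Ω ⧸ Subgroup.center Ω := (QuotientGroup.mk' (Subgroup.center Ω)).comp φ
  have hψ : Function.Surjective ψ := (QuotientGroup.mk'_surjective _).comp hφ
  have hk : ψ.ker = π.ker := by
    ext s
    rw [MonoidHom.mem_ker, MonoidHom.mem_ker, hker]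
    show ((φ s : Ω) : Ω ⧸ Subgroup.center Ω) = 1 ↔ _
    rw [QuotientGroup.eq_one_iff, Subgroup.mem_center_iff]
    constructor
    · intro h t
      rw [map_mul, map_mul, h (φ t)]
    · intro h ω
      obtain ⟨t, rfl⟩ := hφ ω
      rw [← map_mul, ← map_mul, h t]
  exact ⟨((QuotientGroup.quotientKerEquivOfSurjective ψ hψ).symm.trans
    (QuotientGroup.quotientMulEquivOfEq hk)).trans
      (QuotientGroup.quotientKerEquivOfSurjective π hπ)⟩

/-- Variant of `commutator_quotient_center_equiv` with an arbitrary quotient `π : S → P`. -/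
theorem commutator_quotient_center_equiv' {O S P : Type*} [Group O] [Group S] [Group P]
    [Finite O] [Finite S]
    (φ : S →* O) (himg : ∀ s, φ s ∈ commutator O)
    (hcard : Nat.card ↥(commutator O) * Nat.card ↥φ.ker ≤ Nat.card S)
    (π : S →* P) (hπ : Function.Surjective π)
    (hker : ∀ s : S, π s = 1 ↔ ∀ t : S, φ (s * t) = φ (t * s)) :
    Nonempty (↥(commutator O) ⧸ Subgroup.center ↥(commutator O) ≃* P) := by
  let φ' : S →* ↥(commutator O) := φ.codRestrict (commutator O) himg
  have hk : φ'.ker = φ.ker := by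
    ext s
    rw [MonoidHom.mem_ker, MonoidHom.mem_ker]
    constructor
    · intro h
      exact congrArg Subtype.val h
    · intro h
      exact Subtype.ext h
  have h1 : Nat.card S = Nat.card ↥φ'.range * Nat.card ↥φ.ker := by
    rw [Subgroup.card_eq_card_quotient_mul_card_subgroup φ'.ker,
      Nat.card_congr (QuotientGroup.quotientKerEquivRange φ').toEquiv, hk]
  have hkpos : 0 < Nat.card ↥φ.ker := Nat.card_pos
  have h2 : Nat.card ↥(commutator O) ≤ Nat.card ↥φ'.range := by
    rw [h1] at hcard
    exact Nat.le_of_mul_le_mul_right hcard hkpos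
  have h3 : φ'.range = ⊤ := Subgroup.eq_top_of_le_card _ h2
  have hsurj : Function.Surjective φ' := MonoidHom.range_eq_top.mp h3
  refine quotient_center_equiv_of_surjective' φ' hsurj π hπ ?_
  intro s
  rw [hker]
  constructor
  · intro h t
    exact Subtype.ext (h t)
  · intro h t
    exact congrArg Subtype.val (h t)

end Abstract

end Cfsg.Agent.Lib.Helper43
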