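import Mathlib
import Cfsg.Prelude.Def_Classical
import Cfsg.Agent.Lib.Helper43.POmegaIso
import Cfsg.Agent.Lib.Helper43.OrthOdd
import Cfsg.Agent.Lib.Helper14.Spinor2
import Cfsg.Agent.Lib.Helper5.PSL2
import Cfsg.Agent.Lib.Helper5.SLGen

/-!
# `PΩ₃(q) ≅ PSL₂(q)` for `q` odd
-/

set_option autoImplicit false

namespace Cfsg.Agent.Lib.Helper43

section SL2O3

variable {F : Type*} [Field F]

/-- The matrix of `M ↦ A M adj(A)` on the trace-zero matrices `[[x₀, x₁], [y₁, -x₀]]`. -/
def adjMat (A : Matrix (Fin 2) (Fin 2) F) :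
    Matrix (Unit ⊕ (Fin 1 ⊕ Fin 1)) (Unit ⊕ (Fin 1 ⊕ Fin 1)) F :=
  Matrix.of fun i j =>
    match i, j with
    | .inl _, .inl _ => A 0 0 * A 1 1 + A 0 1 * A 1 0
    | .inl _, .inr (.inl _) => - (A 0 0 * A 1 0)
    | .inl _, .inr (.inr _) => A 0 1 * A 1 1
    | .inr (.inl _), .inl _ => - (2 * A 0 0 * A 0 1)
    | .inr (.inl _), .inr (.inl _) => A 0 0 ^ 2
    | .inr (.inl _), .inr (.inr _) => - A 0 1 ^ 2
    | .inr (.inr _), .inl _ => 2 * A 1 0 * A 1 1
    | .inr (.inr _), .inr (.inl _) => - A 1 0 ^ 2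
    | .inr (.inr _), .inr (.inr _) => A 1 1 ^ 2

theorem adjMat_mulVec (A : Matrix (Fin 2) (Fin 2) F) (v : Unit ⊕ (Fin 1 ⊕ Fin 1) → F) :
    (adjMat A).mulVec v = fun i =>
      match i with
      | .inl _ => (A 0 0 * A 1 1 + A 0 1 * A 1 0) * v (.inl ()) - (A 0 0 * A 1 0) * v (.inr (.inl 0))
          + A 0 1 * A 1 1 * v (.inr (.inr 0))
      | .inr (.inl _) => - (2 * A 0 0 * A 0 1) * v (.inl ()) + A 0 0 ^ 2 * v (.inr (.inl 0))
          - A 0 1 ^ 2 * v (.inr (.inr 0))
      | .inr (.inr _) => 2 * A 1 0 * A 1 1 * v (.inl ()) - A 1 0 ^ 2 * v (.inr (.inl 0))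
          + A 1 1 ^ 2 * v (.inr (.inr 0)) := by
  funext i
  rcases i with i | i | i
  · simp [Matrix.mulVec, dotProduct, adjMat]
    ring
  · simp [Matrix.mulVec, dotProduct, adjMat]
    ring
  · simp [Matrix.mulVec, dotProduct, adjMat]
    ring

theorem adjMat_one : adjMat (1 : Matrix (Fin 2) (Fin 2) F) = 1 := by
  ext i j
  rcases i with i | i | i <;> rcases j with j | j | j <;>
    simp [adjMat, Matrix.one_apply, Subsingleton.elim (_ : Fin 1) 0]

theorem adjMat_mul (A B : Matrix (Fin 2) (Fin 2) F) : adjMat (A * B) = adjMat A * adjMat B := by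
  ext i j
  rcases i with i | i | i <;> rcases j with j | j | j <;>
    simp [adjMat, Matrix.mul_apply, Fin.sum_univ_two] <;> ring

theorem quadFormOdd_adjMat (A : Matrix (Fin 2) (Fin 2) F) (v : Unit ⊕ (Fin 1 ⊕ Fin 1) → F) :
    Cfsg.quadFormOdd 1 F ((adjMat A).mulVec v) = A.det ^ 2 * Cfsg.quadFormOdd 1 F v := by
  rw [adjMat_mulVec, Matrix.det_fin_two]
  simp only [Cfsg.quadFormOdd, Fin.sum_univ_one, Fin.isValue]
  ring

/-- `SL₂(F) → O₃(F)`: the action on trace-zero matrices by conjugation. -/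
def sl2ToO3 (F : Type*) [Field F] :
    Matrix.SpecialLinearGroup (Fin 2) F →* ↥(Cfsg.isometryGroup F (Cfsg.quadFormOdd 1 F)) :=
  (MonoidHom.toHomUnits
    { toFun := fun A => adjMat A.1
      map_one' := adjMat_one
      map_mul' := fun A B => adjMat_mul A.1 B.1 }).codRestrict _ (by
    intro A u _
    show Cfsg.quadFormOdd 1 F ((adjMat A.1).mulVec u) = Cfsg.quadFormOdd 1 F u
    rw [quadFormOdd_adjMat, A.2, one_pow, one_mul])

theorem sl2ToO3_coe (A : Matrix.SpecialLinearGroup (Fin 2) F) :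
    (((sl2ToO3 F A : ↥(Cfsg.isometryGroup F (Cfsg.quadFormOdd 1 F))) :
      Matrix.GeneralLinearGroup (Unit ⊕ (Fin 1 ⊕ Fin 1)) F) :
        Matrix (Unit ⊕ (Fin 1 ⊕ Fin 1)) (Unit ⊕ (Fin 1 ⊕ Fin 1)) F) = adjMat A.1 := rfl

theorem eq_one_or_neg_one_of_sl2ToO3 (A : Matrix.SpecialLinearGroup (Fin 2) F)
    (h : sl2ToO3 F A = 1) : A = 1 ∨ A = -1 := by
  have h1 : adjMat A.1 = 1 := by
    rw [← sl2ToO3_coe, h]
    rfl
  have ha : A.1 0 0 ^ 2 = 1 := by
    have := congrFun (congrFun h1 (.inr (.inl 0))) (.inr (.inl 0))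
    simpa [adjMat] using this
  have hb : A.1 0 1 = 0 := by
    have := congrFun (congrFun h1 (.inr (.inl 0))) (.inr (.inr 0))
    simpa [adjMat] using this
  have hc : A.1 1 0 = 0 := by
    have := congrFun (congrFun h1 (.inr (.inr 0))) (.inr (.inl 0))
    simpa [adjMat] using this
  have hdet : A.1 0 0 * A.1 1 1 - A.1 0 1 * A.1 1 0 = 1 := by
    rw [← Matrix.det_fin_two]
    exact A.2
  rw [hb, zero_mul, sub_zero] at hdet
  have hd : A.1 1 1 = A.1 0 0 := by linear_combination (A.1 0 0) * hdet - (A.1 1 1) * ha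
  have ha' : (A.1 0 0 - 1) * (A.1 0 0 + 1) = 0 := by linear_combination ha
  rcases mul_eq_zero.mp ha' with h' | h'
  · left
    apply Subtype.ext
    ext i j
    fin_cases i <;> fin_cases j
    · simpa using sub_eq_zero.mp h'
    · simpa using hb
    · simpa using hc
    · simp only [Fin.mk_one, Fin.isValue, Matrix.SpecialLinearGroup.coe_one, Matrix.one_apply_eq]
      rw [hd]
      exact sub_eq_zero.mp h'
  · right
    apply Subtype.ext
    ext i j
    have h'' : A.1 0 0 = -1 := by linear_combination h'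
    fin_cases i <;> fin_cases j
    · simpa using h''
    · simpa using hb
    · simpa using hc
    · simp only [Fin.mk_one, Fin.isValue, Matrix.SpecialLinearGroup.coe_neg,
        Matrix.SpecialLinearGroup.coe_one, Matrix.neg_apply, Matrix.one_apply_eq]
      rw [hd]
      exact h''

theorem card_ker_sl2ToO3_le : Nat.card ↥(sl2ToO3 F).ker ≤ 2 := by
  classical
  have hsub : ((sl2ToO3 F).ker : Set (Matrix.SpecialLinearGroup (Fin 2) F)) ⊆ {1, -1} := by
    intro A hA
    rcases eq_one_or_neg_one_of_sl2ToO3 A hA with h | h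
    · exact Or.inl h
    · exact Or.inr h
  calc Nat.card ↥(sl2ToO3 F).ker
      = ((sl2ToO3 F).ker : Set (Matrix.SpecialLinearGroup (Fin 2) F)).ncard := rfl
    _ ≤ ({1, -1} : Set (Matrix.SpecialLinearGroup (Fin 2) F)).ncard :=
        Set.ncard_le_ncard hsub (Set.toFinite _)
    _ ≤ 2 := (Set.ncard_insert_le _ _).trans (by rw [Set.ncard_singleton])

theorem sl2ToO3_mem_commutator (h2 : (2 : F) ≠ 0)
    (hidx : (commutator ↥(Cfsg.isometryGroup F (Cfsg.quadFormOdd 1 F))).index = 4)
    (A : Matrix.SpecialLinearGroup (Fin 2) F) :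
    sl2ToO3 F A ∈ commutator ↥(Cfsg.isometryGroup F (Cfsg.quadFormOdd 1 F)) := by
  refine Cfsg.Agent.Lib.Helper5.transvection_induction
    (fun A => sl2ToO3 F A ∈ commutator ↥(Cfsg.isometryGroup F (Cfsg.quadFormOdd 1 F)))
    ?_ ?_ A
  · intro i j hij c
    have h4 : (4 : F) ≠ 0 := by
      have : (4 : F) = 2 * 2 := by norm_num
      rw [this]
      exact mul_ne_zero h2 h2
    have hc : Matrix.SpecialLinearGroup.transvection hij c
        = (Matrix.SpecialLinearGroup.transvection hij (c / 4)) ^ 4 := by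
      rw [pow_succ, pow_succ, pow_succ, pow_one, ← Matrix.SpecialLinearGroup.transvection_add,
        ← Matrix.SpecialLinearGroup.transvection_add, ← Matrix.SpecialLinearGroup.transvection_add]
      congr 1
      field_simp
      ring
    show sl2ToO3 F (Matrix.SpecialLinearGroup.transvection hij c) ∈ _
    rw [hc, map_pow, ← hidx]
    exact Subgroup.pow_index_mem _ _
  · intro A B hA hB
    show sl2ToO3 F (A * B) ∈ _
    rw [map_mul]
    exact mul_mem hA hB

theorem sl2_mem_center_of_comm (h2 : (2 : F) ≠ 0) (s : Matrix.SpecialLinearGroup (Fin 2) F)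
    (hs : ∀ t, sl2ToO3 F (s * t) = sl2ToO3 F (t * s)) :
    s ∈ Subgroup.center (Matrix.SpecialLinearGroup (Fin 2) F) := by
  have key : ∀ A : Matrix.SpecialLinearGroup (Fin 2) F, s * A = A * s := by
    intro A
    refine Cfsg.Agent.Lib.Helper5.transvection_induction (fun A => s * A = A * s) ?_ ?_ A
    · intro i j hij c
      have h1 : sl2ToO3 F ((Matrix.SpecialLinearGroup.transvection hij c * s)⁻¹
          * (s * Matrix.SpecialLinearGroup.transvection hij c)) = 1 := by
        rw [map_mul, map_inv, hs, inv_mul_cancel]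
      rcases eq_one_or_neg_one_of_sl2ToO3 _ h1 with h | h
      · show s * Matrix.SpecialLinearGroup.transvection hij c
          = Matrix.SpecialLinearGroup.transvection hij c * s
        exact (inv_mul_eq_one.mp h).symm
      · exfalso
        set t := Matrix.SpecialLinearGroup.transvection hij c with ht
        have h3 : s * t * s⁻¹ = -t := by
          have : s * t = (t * s) * (-1) := by
            rw [← h, mul_inv_cancel_left]
          rw [this]
          apply Subtype.ext
          simp [mul_assoc]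
        have h4 : Matrix.trace (s * t * s⁻¹).1 = Matrix.trace t.1 := by
          have : (s * t * s⁻¹).1 = s.1 * (t.1 * (s⁻¹).1) := by
            simp [mul_assoc]
          rw [this, Matrix.trace_mul_comm, mul_assoc]
          have h5 : (s⁻¹).1 * s.1 = 1 := by
            rw [← Matrix.SpecialLinearGroup.coe_mul, inv_mul_cancel]
            rfl
          rw [h5, mul_one]
        rw [h3] at h4
        have h6 : Matrix.trace t.1 = 2 := by
          rw [ht, Matrix.SpecialLinearGroup.transvection_coe, Matrix.trace_add, Matrix.trace_one]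
          rw [Matrix.trace_single_eq_of_ne _ _ _ hij, add_zero]
          simp
        have h7 : Matrix.trace (-t).1 = -2 := by
          rw [Matrix.SpecialLinearGroup.coe_neg, Matrix.trace_neg, h6]
        rw [h7, h6] at h4
        apply h2
        have : (2 : F) * 2 = 0 := by linear_combination -h4
        rcases mul_eq_zero.mp this with h | h <;> exact h
    · intro A B hA hB
      show s * (A * B) = A * B * s
      rw [← mul_assoc, hA, mul_assoc, hB, mul_assoc]
  rw [Subgroup.mem_center_iff]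
  intro g
  exact (key g).symm

/-- `PΩ₃(q) ≅ PSL₂(q)` for `q` odd. -/
theorem pomega3_equiv [Fintype F] (hodd : Odd (Fintype.card F)) :
    Nonempty (Cfsg.POmega F (Cfsg.quadFormOdd 1 F)
      ≃* Matrix.ProjectiveSpecialLinearGroup (Fin 2) F) := by
  classical
  have h2 : (2 : F) ≠ 0 := Cfsg.Agent.Lib.Helper5.two_ne_zero_of_odd_card hodd
  have hQfun : (⇑(qGen (qSq F) 1) : (Unit ⊕ (Fin 1 ⊕ Fin 1) → F) → F) = Cfsg.quadFormOdd 1 F :=
    funext (qGen_qSq_apply 1)
  have hidx : (commutator ↥(Cfsg.isometryGroup F (Cfsg.quadFormOdd 1 F))).index = 4 := by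
    have := Cfsg.Agent.Lib.Helper14.index_commutator_eq_four h2 (qGen (qSq F) 1)
      (nondeg_qGen (qSq F) (nondeg_qSq h2) 1) (by simp)
    rw [hQfun] at this
    exact this
  have hq : 2 ≤ Fintype.card F := Fintype.one_lt_card
  have hO : Nat.card ↥(Cfsg.isometryGroup F (Cfsg.quadFormOdd 1 F))
      = 2 * (Fintype.card F * (Fintype.card F ^ 2 - 1)) := by
    rw [card_isometryGroup_eq _ (qGen (qSq F) 1) (qGen_qSq_apply 1), isoCard_oddTower h2]
    simp
    ring
  have hS : Nat.card (Matrix.SpecialLinearGroup (Fin 2) F)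
      = Fintype.card F * (Fintype.card F ^ 2 - 1) := Cfsg.Agent.Lib.Helper5.card_SL2
  have hpos : 0 < Fintype.card F * (Fintype.card F ^ 2 - 1) := by
    apply Nat.mul_pos (by omega)
    have : 2 ^ 2 ≤ Fintype.card F ^ 2 := Nat.pow_le_pow_left hq 2
    omega
  have : Finite ↥(Cfsg.isometryGroup F (Cfsg.quadFormOdd 1 F)) :=
    Nat.finite_of_card_ne_zero (by rw [hO]; omega)
  have : Finite (Matrix.SpecialLinearGroup (Fin 2) F) :=
    Nat.finite_of_card_ne_zero (by rw [hS]; omega)
  have hC := Subgroup.card_mul_index (commutator ↥(Cfsg.isometryGroup F (Cfsg.quadFormOdd 1 F)))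
  rw [hidx, hO] at hC
  refine commutator_quotient_center_equiv (sl2ToO3 F) (sl2ToO3_mem_commutator h2 hidx) ?_
    (sl2_mem_center_of_comm h2)
  rw [hS]
  have hk := card_ker_sl2ToO3_le (F := F)
  calc Nat.card ↥(commutator ↥(Cfsg.isometryGroup F (Cfsg.quadFormOdd 1 F)))
        * Nat.card ↥(sl2ToO3 F).ker
      ≤ Nat.card ↥(commutator ↥(Cfsg.isometryGroup F (Cfsg.quadFormOdd 1 F))) * 2 :=
        Nat.mul_le_mul_left _ hk
    _ = Fintype.card F * (Fintype.card F ^ 2 - 1) := by omega

end SL2O3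

end Cfsg.Agent.Lib.Helper43
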