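import Mathlib
import Cfsg.Agent.Lib.Helper5.SLGen

/-!
# Homomorphisms out of `SL_n(F)` land in commutator subgroups
-/

set_option autoImplicit false

namespace Cfsg.Agent.Lib.Helper43

open scoped commutatorElement

section Perfect

/-- A hom from a perfect group lands in the commutator subgroup. -/
theorem map_mem_commutator_of_perfect {S O : Type*} [Group S] [Group O] (ψ : S →* O)
    (hS : commutator S = ⊤) (s : S) : ψ s ∈ commutator O := by
  have hs : s ∈ commutator S := by rw [hS]; exact Subgroup.mem_top s
  have h1 : ψ s ∈ (commutator S).map ψ := Subgroup.mem_map_of_mem ψ hs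
  rw [commutator_def, Subgroup.map_commutator] at h1
  rw [commutator_def]
  exact Subgroup.commutator_mono le_top le_top h1

variable {ι : Type*} [Fintype ι] [DecidableEq ι] {F : Type*} [Field F]

/-- A hom from `SL_n(F)`, `2 ≠ 0`, to a group whose commutator subgroup has index four lands in the
commutator subgroup (transvections are fourth powers). -/
theorem sl_map_mem_commutator_of_index_four [Nontrivial ι] {O : Type*} [Group O]
    (ψ : Matrix.SpecialLinearGroup ι F →* O) (h2 : (2 : F) ≠ 0)
    (hidx : (commutator O).index = 4) (A : Matrix.SpecialLinearGroup ι F) :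
    ψ A ∈ commutator O := by
  refine Cfsg.Agent.Lib.Helper5.transvection_induction (fun A => ψ A ∈ commutator O) ?_ ?_ A
  · intro i j hij c
    have h4 : (4 : F) ≠ 0 := by
      have : (4 : F) = 2 * 2 := by norm_num
      rw [this]
      exact mul_ne_zero h2 h2
    have hc : Matrix.SpecialLinearGroup.transvection hij c
        = (Matrix.SpecialLinearGroup.transvection hij (c / 4)) ^ 4 := by
      rw [pow_succ, pow_succ, pow_succ, pow_one, ← Matrix.SpecialLinearGroup.transvection_add,
        ← Matrix.SpecialLinearGroup.transvection_add, ← Matrix.SpecialLinearGroup.transvection_add]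
      congr 1
      field_simp
      ring
    show ψ (Matrix.SpecialLinearGroup.transvection hij c) ∈ _
    rw [hc, map_pow, ← hidx]
    exact Subgroup.pow_index_mem _ _
  · intro A B hA hB
    show ψ (A * B) ∈ _
    rw [map_mul]
    exact mul_mem hA hB

/-- Conjugating a transvection by a diagonal element scales it. -/
theorem diag2n_mul_transvection {i j : ι} (hij : i ≠ j) (a : F) (ha : a ≠ 0) (c : F) :
    Matrix.SpecialLinearGroup.diag2n hij a ha * Matrix.SpecialLinearGroup.transvection hij c
      = Matrix.SpecialLinearGroup.transvection hij (a ^ 2 * c)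
        * Matrix.SpecialLinearGroup.diag2n hij a ha := by
  apply Subtype.ext
  rw [Matrix.SpecialLinearGroup.coe_mul, Matrix.SpecialLinearGroup.coe_mul,
    Matrix.SpecialLinearGroup.diag2n_coe, Matrix.SpecialLinearGroup.transvection_coe,
    Matrix.SpecialLinearGroup.transvection_coe, mul_add, add_mul, mul_one, one_mul]
  congr 1
  ext k l
  rw [Matrix.diagonal_mul, Matrix.mul_diagonal, Matrix.single_apply, Matrix.single_apply]
  by_cases h : i = k ∧ j = l
  · obtain ⟨rfl, rfl⟩ := h
    simp only [and_self, if_true, if_neg hij.symm]
    field_simp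
  · rw [if_neg h, if_neg h, mul_zero, zero_mul]

/-- If `a² ≠ 1` for some `a ≠ 0`, every transvection of `SL_n(F)` is a commutator. -/
theorem transvection_mem_commutator_of_sq_ne_one (a : F) (ha : a ≠ 0) (ha2 : a ^ 2 ≠ 1)
    {i j : ι} (hij : i ≠ j) (c : F) :
    Matrix.SpecialLinearGroup.transvection hij c ∈ commutator (Matrix.SpecialLinearGroup ι F) := by
  have hne : a ^ 2 - 1 ≠ 0 := sub_ne_zero.mpr ha2
  have h1 : Matrix.SpecialLinearGroup.transvection hij c
      = ⁅Matrix.SpecialLinearGroup.diag2n hij a ha,
          Matrix.SpecialLinearGroup.transvection hij (c / (a ^ 2 - 1))⁆ := by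
    rw [commutatorElement_def, diag2n_mul_transvection, mul_assoc, mul_assoc,
      mul_inv_cancel_left, Matrix.SpecialLinearGroup.transvection_inv,
      ← Matrix.SpecialLinearGroup.transvection_add]
    congr 1
    field_simp
    ring
  rw [h1, commutator_def]
  exact Subgroup.commutator_mem_commutator (Subgroup.mem_top _) (Subgroup.mem_top _)

/-- `SL_n(F)` is perfect when some `a ≠ 0` has `a² ≠ 1`. -/
theorem commutator_sl_eq_top_of_sq_ne_one [Nontrivial ι] (a : F) (ha : a ≠ 0) (ha2 : a ^ 2 ≠ 1) :
    commutator (Matrix.SpecialLinearGroup ι F) = ⊤ :=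
  Cfsg.Agent.Lib.Helper5.eq_top_of_transvection_mem _
    (fun _ _ hij c => transvection_mem_commutator_of_sq_ne_one a ha ha2 hij c)

/-- A field with at least four elements has a nonzero element whose square is not one. -/
theorem exists_sq_ne_one [Fintype F] (hF : 4 ≤ Fintype.card F) : ∃ a : F, a ≠ 0 ∧ a ^ 2 ≠ 1 := by
  classical
  by_contra hcon
  push Not at hcon
  have hsub : (Finset.univ : Finset F) ⊆ {0, 1, -1} := by
    intro a _
    by_cases h0 : a = 0
    · simp [h0]
    · have h1 := hcon a h0
      have h2 : (a - 1) * (a + 1) = 0 := by linear_combination h1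
      rcases mul_eq_zero.mp h2 with h | h
      · have : a = 1 := by linear_combination h
        simp [this]
      · have : a = -1 := by linear_combination h
        simp [this]
  have hle := Finset.card_le_card hsub
  have h3 : ({0, 1, -1} : Finset F).card ≤ 3 := Finset.card_le_three
  rw [Finset.card_univ] at hle
  omega

/-- `SL_n(F)` is perfect for `|F| ≥ 4`. -/
theorem commutator_sl_eq_top_of_card [Nontrivial ι] [Fintype F] (hF : 4 ≤ Fintype.card F) :
    commutator (Matrix.SpecialLinearGroup ι F) = ⊤ := by
  obtain ⟨a, ha, ha2⟩ := exists_sq_ne_one hF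
  exact commutator_sl_eq_top_of_sq_ne_one a ha ha2

/-- Centrality lifting for a hom out of `SL_n(K)` whose kernel consists of `±1`. -/
theorem sl_mem_center_of_ker [Nontrivial ι] {O : Type*} [Group O]
    (φ : Matrix.SpecialLinearGroup ι F →* O)
    (hker : ∀ A : Matrix.SpecialLinearGroup ι F, φ A = 1 → A.1 = 1 ∨ A.1 = -1)
    (h2 : (2 : F) * (Fintype.card ι : F) = 0 → (2 : F) = 0)
    (s : Matrix.SpecialLinearGroup ι F) (hs : ∀ t, φ (s * t) = φ (t * s)) :
    s ∈ Subgroup.center (Matrix.SpecialLinearGroup ι F) := by
  have key : ∀ A : Matrix.SpecialLinearGroup ι F, s * A = A * s := by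
    intro A
    refine Cfsg.Agent.Lib.Helper5.transvection_induction (fun A => s * A = A * s) ?_ ?_ A
    · intro i j hij c
      set t := Matrix.SpecialLinearGroup.transvection hij c with ht
      show s * t = t * s
      have h1 : φ ((t * s)⁻¹ * (s * t)) = 1 := by
        rw [map_mul, map_inv, hs, inv_mul_cancel]
      have hk := hker _ h1
      have hmat : (s * t).1 = (t * s).1 * ((t * s)⁻¹ * (s * t)).1 := by
        rw [← Matrix.SpecialLinearGroup.coe_mul, mul_inv_cancel_left]
      rcases hk with h | h
      · rw [h, mul_one] at hmat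
        exact Subtype.ext hmat
      · rw [h, mul_neg, mul_one] at hmat
        have h3 : s.1 * t.1 = -(t.1 * s.1) := by
          rw [← Matrix.SpecialLinearGroup.coe_mul, ← Matrix.SpecialLinearGroup.coe_mul]
          exact hmat
        have h5 : s.1 * (s⁻¹).1 = 1 := by
          rw [← Matrix.SpecialLinearGroup.coe_mul, mul_inv_cancel]
          rfl
        have h4 : Matrix.trace (s.1 * t.1 * (s⁻¹).1) = Matrix.trace t.1 := by
          rw [Matrix.trace_mul_comm, ← mul_assoc]
          have h6 : (s⁻¹).1 * s.1 = 1 := by
            rw [← Matrix.SpecialLinearGroup.coe_mul, inv_mul_cancel]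
            rfl
          rw [h6, one_mul]
        rw [h3, neg_mul, mul_assoc, h5, mul_one, Matrix.trace_neg] at h4
        have h7 : Matrix.trace t.1 = (Fintype.card ι : F) := by
          rw [ht, Matrix.SpecialLinearGroup.transvection_coe, Matrix.trace_add, Matrix.trace_one,
            Matrix.trace_single_eq_of_ne _ _ _ hij, add_zero]
        rw [h7] at h4
        have h2' : (2 : F) = 0 := h2 (by linear_combination -h4)
        apply Subtype.ext
        rw [hmat]
        ext x y
        rw [Matrix.neg_apply]
        linear_combination (-((t * s).1 x y)) * h2'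
    · intro A B hA hB
      show s * (A * B) = A * B * s
      rw [← mul_assoc, hA, mul_assoc, hB, mul_assoc]
  rw [Subgroup.mem_center_iff]
  intro g
  exact (key g).symm

end Perfect

section Perm

/-- The commutator subgroup of a group isomorphic to `S_n`, `n ≥ 5`, has index two. -/
theorem index_commutator_of_equiv_perm {G : Type*} [Group G] {n : ℕ} (hn : 5 ≤ n)
    (e : G ≃* Equiv.Perm (Fin n)) : (commutator G).index = 2 := by
  have hmap : (commutator G).map (e : G →* Equiv.Perm (Fin n)) = alternatingGroup (Fin n) := by
    rw [commutator_def, Subgroup.map_commutator,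
      Subgroup.map_top_of_surjective (e : G →* Equiv.Perm (Fin n)) e.surjective, ← commutator_def]
    exact alternatingGroup.commutator_perm_eq (by
      rw [Nat.card_eq_fintype_card, Fintype.card_fin]; exact hn)
  have : Nontrivial (Fin n) := Fin.nontrivial_iff_two_le.mpr (by omega)
  rw [← Subgroup.index_map_equiv (commutator G) e, hmap]
  exact alternatingGroup.index_eq_two

end Perm

end Cfsg.Agent.Lib.Helper43
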