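import Mathlib
import Cfsg.Prelude.Def_Classical
import Cfsg.Agent.Lib.Helper43.POmegaIso
import Cfsg.Agent.Lib.Helper43.SLMaps
import Cfsg.Agent.Lib.Helper43.OrthOrders
import Cfsg.Agent.Lib.Helper14.Spinor2
import Cfsg.Agent.Lib.Helper44.Dickson
import Cfsg.Agent.Lib.Helper5.PSL2

/-!
# `PΩ⁺₄(q) ≅ PSL₂(q) × PSL₂(q)` for `q ≥ 3`
-/

set_option autoImplicit false

namespace Cfsg.Agent.Lib.Helper43

section SL2O4

variable {F : Type*} [Field F]

/-- The matrix of `M ↦ A M` on `M = [[x₀, x₁], [-y₁, y₀]]`. -/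
def lMat (A : Matrix (Fin 2) (Fin 2) F) : Matrix (Fin 2 ⊕ Fin 2) (Fin 2 ⊕ Fin 2) F :=
  Matrix.fromBlocks !![A 0 0, 0; 0, A 0 0] !![0, -A 0 1; A 0 1, 0]
    !![0, A 1 0; -A 1 0, 0] !![A 1 1, 0; 0, A 1 1]

/-- The matrix of `M ↦ M adj(B)` on `M = [[x₀, x₁], [-y₁, y₀]]`. -/
def rMat (B : Matrix (Fin 2) (Fin 2) F) : Matrix (Fin 2 ⊕ Fin 2) (Fin 2 ⊕ Fin 2) F :=
  Matrix.fromBlocks !![B 1 1, -B 1 0; -B 0 1, B 0 0] 0 0 !![B 0 0, B 0 1; B 1 0, B 1 1]

theorem lMat_one : lMat (1 : Matrix (Fin 2) (Fin 2) F) = 1 := by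
  ext i j
  rcases i with i | i <;> rcases j with j | j <;> fin_cases i <;> fin_cases j <;> simp [lMat]

theorem rMat_one : rMat (1 : Matrix (Fin 2) (Fin 2) F) = 1 := by
  ext i j
  rcases i with i | i <;> rcases j with j | j <;> fin_cases i <;> fin_cases j <;> simp [rMat]

theorem lMat_mul (A B : Matrix (Fin 2) (Fin 2) F) : lMat (A * B) = lMat A * lMat B := by
  ext i j
  rcases i with i | i <;> rcases j with j | j <;> fin_cases i <;> fin_cases j <;>
    simp [lMat, Matrix.mul_apply, Fin.sum_univ_two] <;> ring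

theorem rMat_mul (A B : Matrix (Fin 2) (Fin 2) F) : rMat (A * B) = rMat A * rMat B := by
  ext i j
  rcases i with i | i <;> rcases j with j | j <;> fin_cases i <;> fin_cases j <;>
    simp [rMat, Matrix.mul_apply, Fin.sum_univ_two] <;> ring

theorem lMat_mul_rMat_comm (A B : Matrix (Fin 2) (Fin 2) F) :
    lMat A * rMat B = rMat B * lMat A := by
  ext i j
  rcases i with i | i <;> rcases j with j | j <;> fin_cases i <;> fin_cases j <;>
    simp [lMat, rMat, Matrix.mul_apply, Fin.sum_univ_two] <;> ring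

theorem quadFormPlus_lMat (A : Matrix (Fin 2) (Fin 2) F) (v : Fin 2 ⊕ Fin 2 → F) :
    Cfsg.quadFormPlus 2 F ((lMat A).mulVec v) = A.det * Cfsg.quadFormPlus 2 F v := by
  rw [Matrix.det_fin_two]
  simp [Cfsg.quadFormPlus, lMat, Matrix.mulVec, dotProduct, Fin.sum_univ_two]
  ring

theorem quadFormPlus_rMat (A : Matrix (Fin 2) (Fin 2) F) (v : Fin 2 ⊕ Fin 2 → F) :
    Cfsg.quadFormPlus 2 F ((rMat A).mulVec v) = A.det * Cfsg.quadFormPlus 2 F v := by
  rw [Matrix.det_fin_two]
  simp [Cfsg.quadFormPlus, rMat, Matrix.mulVec, dotProduct, Fin.sum_univ_two]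
  ring

/-- Left multiplication as a hom `SL₂(F) → O⁺₄(F)`. -/
def lHom (F : Type*) [Field F] :
    Matrix.SpecialLinearGroup (Fin 2) F →* ↥(Cfsg.isometryGroup F (Cfsg.quadFormPlus 2 F)) :=
  (MonoidHom.toHomUnits
    { toFun := fun A => lMat A.1
      map_one' := lMat_one
      map_mul' := fun A B => lMat_mul A.1 B.1 }).codRestrict _ (by
    intro A u _
    show Cfsg.quadFormPlus 2 F ((lMat A.1).mulVec u) = Cfsg.quadFormPlus 2 F u
    rw [quadFormPlus_lMat, A.2, one_mul])

/-- Right multiplication by the inverse as a hom `SL₂(F) → O⁺₄(F)`. -/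
def rHom (F : Type*) [Field F] :
    Matrix.SpecialLinearGroup (Fin 2) F →* ↥(Cfsg.isometryGroup F (Cfsg.quadFormPlus 2 F)) :=
  (MonoidHom.toHomUnits
    { toFun := fun A => rMat A.1
      map_one' := rMat_one
      map_mul' := fun A B => rMat_mul A.1 B.1 }).codRestrict _ (by
    intro A u _
    show Cfsg.quadFormPlus 2 F ((rMat A.1).mulVec u) = Cfsg.quadFormPlus 2 F u
    rw [quadFormPlus_rMat, A.2, one_mul])

/-- `SL₂(F) × SL₂(F) → O⁺₄(F)`. -/
def lrHom (F : Type*) [Field F] :
    Matrix.SpecialLinearGroup (Fin 2) F × Matrix.SpecialLinearGroup (Fin 2) F →*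
      ↥(Cfsg.isometryGroup F (Cfsg.quadFormPlus 2 F)) :=
  MonoidHom.noncommCoprod (lHom F) (rHom F) (fun A B => by
    apply Subtype.ext
    apply Units.ext
    exact lMat_mul_rMat_comm A.1 B.1)

theorem lrHom_apply (s : Matrix.SpecialLinearGroup (Fin 2) F × Matrix.SpecialLinearGroup (Fin 2) F) :
    lrHom F s = lHom F s.1 * rHom F s.2 := rfl

theorem lrHom_coe (s : Matrix.SpecialLinearGroup (Fin 2) F × Matrix.SpecialLinearGroup (Fin 2) F) :
    (((lrHom F s : ↥(Cfsg.isometryGroup F (Cfsg.quadFormPlus 2 F))) :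
      Matrix.GeneralLinearGroup (Fin 2 ⊕ Fin 2) F) :
        Matrix (Fin 2 ⊕ Fin 2) (Fin 2 ⊕ Fin 2) F) = lMat s.1.1 * rMat s.2.1 := rfl

theorem eq_of_lrHom_eq_one
    (s : Matrix.SpecialLinearGroup (Fin 2) F × Matrix.SpecialLinearGroup (Fin 2) F)
    (h : lrHom F s = 1) : s.1 = s.2 ∧ (s.1 = 1 ∨ s.1 = -1) := by
  obtain ⟨A, B⟩ := s
  have h1 : lMat A.1 * rMat B.1 = 1 := by
    rw [← lrHom_coe (A, B), h]
    rfl
  have e1 : A.1 0 0 * B.1 1 1 = 1 := by
    have := congrFun (congrFun h1 (.inl 0)) (.inl 0)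
    simpa [lMat, rMat, Matrix.mul_apply, Fin.sum_univ_two] using this
  have e2 : A.1 0 0 * B.1 1 0 = 0 := by
    have := congrFun (congrFun h1 (.inl 0)) (.inl 1)
    simp [lMat, rMat, Matrix.mul_apply, Fin.sum_univ_two] at this
    rcases this with h | h
    · rw [h, zero_mul]
    · rw [h, mul_zero]
  have e3 : A.1 0 0 * B.1 0 1 = 0 := by
    have := congrFun (congrFun h1 (.inl 1)) (.inl 0)
    simp [lMat, rMat, Matrix.mul_apply, Fin.sum_univ_two] at this
    rcases this with h | h
    · rw [h, zero_mul]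
    · rw [h, mul_zero]
  have e4 : A.1 0 0 * B.1 0 0 = 1 := by
    have := congrFun (congrFun h1 (.inl 1)) (.inl 1)
    simpa [lMat, rMat, Matrix.mul_apply, Fin.sum_univ_two] using this
  have e5 : A.1 0 1 * B.1 0 0 = 0 := by
    have := congrFun (congrFun h1 (.inl 1)) (.inr 0)
    simp [lMat, rMat, Matrix.mul_apply, Fin.sum_univ_two] at this
    rcases this with h | h
    · rw [h, zero_mul]
    · rw [h, mul_zero]
  have e6 : A.1 1 0 * B.1 0 0 = 0 := by
    have := congrFun (congrFun h1 (.inr 0)) (.inl 1)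
    simp [lMat, rMat, Matrix.mul_apply, Fin.sum_univ_two] at this
    rcases this with h | h
    · rw [h, zero_mul]
    · rw [h, mul_zero]
  have e7 : A.1 1 1 * B.1 0 0 = 1 := by
    have := congrFun (congrFun h1 (.inr 0)) (.inr 0)
    simpa [lMat, rMat, Matrix.mul_apply, Fin.sum_univ_two] using this
  have ha : A.1 0 0 ≠ 0 := fun h0 => by rw [h0, zero_mul] at e1; exact zero_ne_one e1
  have ha' : B.1 0 0 ≠ 0 := fun h0 => by rw [h0, mul_zero] at e4; exact zero_ne_one e4
  have hc' : B.1 1 0 = 0 := (mul_eq_zero.mp e2).resolve_left ha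
  have hb' : B.1 0 1 = 0 := (mul_eq_zero.mp e3).resolve_left ha
  have hb : A.1 0 1 = 0 := (mul_eq_zero.mp e5).resolve_right ha'
  have hc : A.1 1 0 = 0 := (mul_eq_zero.mp e6).resolve_right ha'
  have hdetA : A.1 0 0 * A.1 1 1 - A.1 0 1 * A.1 1 0 = 1 := by
    rw [← Matrix.det_fin_two]
    exact A.2
  rw [hb, zero_mul, sub_zero] at hdetA
  have hd : A.1 1 1 = A.1 0 0 := by
    have : (A.1 1 1 - A.1 0 0) * B.1 0 0 = 0 := by linear_combination e7 - e4
    exact sub_eq_zero.mp ((mul_eq_zero.mp this).resolve_right ha')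
  have hd' : B.1 1 1 = B.1 0 0 := by
    have : A.1 0 0 * (B.1 1 1 - B.1 0 0) = 0 := by linear_combination e1 - e4
    exact sub_eq_zero.mp ((mul_eq_zero.mp this).resolve_left ha)
  rw [hd] at hdetA
  have haa' : B.1 0 0 = A.1 0 0 := by
    have : A.1 0 0 * (B.1 0 0 - A.1 0 0) = 0 := by linear_combination e4 - hdetA
    exact sub_eq_zero.mp ((mul_eq_zero.mp this).resolve_left ha)
  have hAB : A = B := by
    apply Subtype.ext
    ext i j
    fin_cases i <;> fin_cases j
    · exact haa'.symm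
    · show A.1 0 1 = B.1 0 1
      rw [hb, hb']
    · show A.1 1 0 = B.1 1 0
      rw [hc, hc']
    · show A.1 1 1 = B.1 1 1
      rw [hd, hd', haa']
  refine ⟨hAB, ?_⟩
  have ha2 : (A.1 0 0 - 1) * (A.1 0 0 + 1) = 0 := by linear_combination hdetA
  rcases mul_eq_zero.mp ha2 with h' | h'
  · left
    apply Subtype.ext
    ext i j
    fin_cases i <;> fin_cases j
    · simpa using sub_eq_zero.mp h'
    · simpa using hb
    · simpa using hc
    · simp only [Fin.mk_one, Fin.isValue, Matrix.SpecialLinearGroup.coe_one, Matrix.one_apply_eq]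
      rw [hd]
      exact sub_eq_zero.mp h'
  · right
    apply Subtype.ext
    ext i j
    have h'' : A.1 0 0 = -1 := by linear_combination h'
    fin_cases i <;> fin_cases j
    · simpa using h''
    · simpa using hb
    · simpa using hc
    · simp only [Fin.mk_one, Fin.isValue, Matrix.SpecialLinearGroup.coe_neg,
        Matrix.SpecialLinearGroup.coe_one, Matrix.neg_apply, Matrix.one_apply_eq]
      rw [hd]
      exact h''

theorem card_ker_lrHom_le : Nat.card ↥(lrHom F).ker ≤ 2 := by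
  classical
  have hsub : ((lrHom F).ker : Set (Matrix.SpecialLinearGroup (Fin 2) F
      × Matrix.SpecialLinearGroup (Fin 2) F)) ⊆ {(1, 1), (-1, -1)} := by
    intro s hs
    obtain ⟨h1, h2⟩ := eq_of_lrHom_eq_one s hs
    rcases h2 with h | h
    · exact Or.inl (Prod.ext h (by rw [← h1]; exact h))
    · exact Or.inr (Prod.ext h (by rw [← h1]; exact h))
  calc Nat.card ↥(lrHom F).ker
      = ((lrHom F).ker : Set (Matrix.SpecialLinearGroup (Fin 2) F
          × Matrix.SpecialLinearGroup (Fin 2) F)).ncard := rfl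
    _ ≤ ({(1, 1), (-1, -1)} : Set (Matrix.SpecialLinearGroup (Fin 2) F
          × Matrix.SpecialLinearGroup (Fin 2) F)).ncard :=
        Set.ncard_le_ncard hsub (Set.toFinite _)
    _ ≤ 2 := (Set.ncard_insert_le _ _).trans (by rw [Set.ncard_singleton])

theorem card_ker_lrHom_of_two_eq_zero (h2 : (2 : F) = 0) : Nat.card ↥(lrHom F).ker = 1 := by
  rw [Nat.card_eq_one_iff_unique]
  refine ⟨⟨fun a b => ?_⟩, ⟨1⟩⟩
  have hneg : (-1 : Matrix.SpecialLinearGroup (Fin 2) F) = 1 := by
    apply Subtype.ext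
    rw [Matrix.SpecialLinearGroup.coe_neg, Matrix.SpecialLinearGroup.coe_one]
    have h1 : (-1 : F) = 1 := by linear_combination (-1 : F) * h2
    ext i j
    rw [Matrix.neg_apply]
    by_cases hij : i = j
    · rw [hij, Matrix.one_apply_eq, h1]
    · rw [Matrix.one_apply_ne hij, neg_zero]
  have key : ∀ s : ↥(lrHom F).ker, s = 1 := by
    intro s
    obtain ⟨h1, h3⟩ := eq_of_lrHom_eq_one s.1 s.2
    rw [hneg, or_self] at h3
    apply Subtype.ext
    exact Prod.ext h3 (by rw [← h1]; exact h3)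
  rw [key a, key b]

end SL2O4

section Main

variable {F : Type*} [Field F] [Fintype F]

omit [Fintype F] in
theorem nondeg_qPlus (m : ℕ) : (QuadraticMap.polarBilin (qPlus F m)).Nondegenerate :=
  nondeg_congr (qGen (0 : QuadraticForm F (Empty → F)) m) (qPlus F m)
    (LinearEquiv.funCongrLeft F F (Equiv.emptySum Empty (Fin m ⊕ Fin m))) (fun _ => rfl)
    (nondeg_qGen _ nondeg_empty m)

/-- `PΩ⁺₄(q) ≅ PSL₂(q) × PSL₂(q)` for `q ≥ 3`. -/
theorem pomega4_equiv (hF : 3 ≤ Fintype.card F) :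
    Nonempty (Cfsg.POmega F (Cfsg.quadFormPlus 2 F)
      ≃* Matrix.ProjectiveSpecialLinearGroup (Fin 2) F
        × Matrix.ProjectiveSpecialLinearGroup (Fin 2) F) := by
  classical
  have hQfun : (⇑(qPlus F 2) : (Fin 2 ⊕ Fin 2 → F) → F) = Cfsg.quadFormPlus 2 F :=
    funext (qPlus_apply 2)
  have hO : Nat.card ↥(Cfsg.isometryGroup F (Cfsg.quadFormPlus 2 F))
      = 2 * (Fintype.card F * (Fintype.card F ^ 2 - 1)) ^ 2 := by
    rw [card_isometryGroup_eq _ (qPlus F 2) (qPlus_apply 2), isoCard_qPlus, isoCard_plusTower 1]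
    simp
    ring
  have hS : Nat.card (Matrix.SpecialLinearGroup (Fin 2) F × Matrix.SpecialLinearGroup (Fin 2) F)
      = (Fintype.card F * (Fintype.card F ^ 2 - 1)) ^ 2 := by
    rw [Nat.card_prod, Cfsg.Agent.Lib.Helper5.card_SL2, pow_two (Fintype.card F * _)]
  have hpos : 0 < (Fintype.card F * (Fintype.card F ^ 2 - 1)) ^ 2 := by
    apply Nat.pow_pos
    apply Nat.mul_pos (by omega)
    have : 3 ^ 2 ≤ Fintype.card F ^ 2 := Nat.pow_le_pow_left hF 2
    omega
  have : Finite ↥(Cfsg.isometryGroup F (Cfsg.quadFormPlus 2 F)) :=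
    Nat.finite_of_card_ne_zero (by rw [hO]; omega)
  have : Finite (Matrix.SpecialLinearGroup (Fin 2) F × Matrix.SpecialLinearGroup (Fin 2) F) :=
    Nat.finite_of_card_ne_zero (by rw [hS]; omega)
  have hC := Subgroup.card_mul_index (commutator ↥(Cfsg.isometryGroup F (Cfsg.quadFormPlus 2 F)))
  rw [hO] at hC
  -- the quotient map onto `PSL₂ × PSL₂`
  let π : Matrix.SpecialLinearGroup (Fin 2) F × Matrix.SpecialLinearGroup (Fin 2) F →*
      Matrix.ProjectiveSpecialLinearGroup (Fin 2) F × Matrix.ProjectiveSpecialLinearGroup (Fin 2) F :=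
    (QuotientGroup.mk' (Subgroup.center (Matrix.SpecialLinearGroup (Fin 2) F))).prodMap
      (QuotientGroup.mk' (Subgroup.center (Matrix.SpecialLinearGroup (Fin 2) F)))
  have hπ : Function.Surjective π :=
    Function.Surjective.prodMap (QuotientGroup.mk'_surjective _) (QuotientGroup.mk'_surjective _)
  have hker : ∀ s : Matrix.SpecialLinearGroup (Fin 2) F × Matrix.SpecialLinearGroup (Fin 2) F,
      π s = 1 ↔ ∀ t, lrHom F (s * t) = lrHom F (t * s) := by
    intro s
    have hπs : π s = 1 ↔ s.1 ∈ Subgroup.center (Matrix.SpecialLinearGroup (Fin 2) F)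
        ∧ s.2 ∈ Subgroup.center (Matrix.SpecialLinearGroup (Fin 2) F) := by
      show ((s.1 : Matrix.ProjectiveSpecialLinearGroup (Fin 2) F),
        (s.2 : Matrix.ProjectiveSpecialLinearGroup (Fin 2) F)) = 1 ↔ _
      rw [Prod.ext_iff]
      show (s.1 : Matrix.ProjectiveSpecialLinearGroup (Fin 2) F) = 1
        ∧ (s.2 : Matrix.ProjectiveSpecialLinearGroup (Fin 2) F) = 1 ↔ _
      rw [QuotientGroup.eq_one_iff, QuotientGroup.eq_one_iff]
    rw [hπs]
    constructor
    · rintro ⟨h1, h2⟩ t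
      have : s * t = t * s := by
        apply Prod.ext
        · exact (Subgroup.mem_center_iff.mp h1 t.1).symm
        · exact (Subgroup.mem_center_iff.mp h2 t.2).symm
      rw [this]
    · intro h
      constructor
      · rw [Subgroup.mem_center_iff]
        intro g
        have h1 : lrHom F (((g, 1) * s)⁻¹ * (s * (g, 1))) = 1 := by
          rw [map_mul, map_inv, h, inv_mul_cancel]
        have h3 := (eq_of_lrHom_eq_one _ h1).1
        have h4 : (((g, 1) * s)⁻¹ * (s * (g, 1)) : Matrix.SpecialLinearGroup (Fin 2) F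
            × Matrix.SpecialLinearGroup (Fin 2) F).2 = 1 := by
          show (1 * s.2)⁻¹ * (s.2 * 1) = 1
          rw [one_mul, mul_one, inv_mul_cancel]
        rw [h4] at h3
        have h5 : (g * s.1)⁻¹ * (s.1 * g) = 1 := h3
        exact (inv_mul_eq_one.mp h5)
      · rw [Subgroup.mem_center_iff]
        intro g
        have h1 : lrHom F (((1, g) * s)⁻¹ * (s * (1, g))) = 1 := by
          rw [map_mul, map_inv, h, inv_mul_cancel]
        have h3 := (eq_of_lrHom_eq_one _ h1).1
        have h4 : (((1, g) * s)⁻¹ * (s * (1, g)) : Matrix.SpecialLinearGroup (Fin 2) F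
            × Matrix.SpecialLinearGroup (Fin 2) F).1 = 1 := by
          show (1 * s.1)⁻¹ * (s.1 * 1) = 1
          rw [one_mul, mul_one, inv_mul_cancel]
        rw [h4] at h3
        have h5 : 1 = (g * s.2)⁻¹ * (s.2 * g) := h3
        exact (inv_mul_eq_one.mp h5.symm)
  by_cases h2 : (2 : F) = 0
  · -- characteristic two
    have h4 : 4 ≤ Fintype.card F := by
      have h3 : Fintype.card F ≠ 3 := by
        intro h3
        have h0 : ((Fintype.card F : ℕ) : F) = 0 := Nat.cast_card_eq_zero F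
        rw [h3] at h0
        have : (1 : F) = 0 := by
          have h3' : (3 : F) = 0 := by exact_mod_cast h0
          linear_combination h3' - h2
        exact one_ne_zero this
      omega
    have hidx : (commutator ↥(Cfsg.isometryGroup F (Cfsg.quadFormPlus 2 F))).index = 2 := by
      have := Cfsg.Agent.Lib.Helper44.index_commutator_char2 h2 (qPlus F 2) (nondeg_qPlus 2)
        (Or.inl (by omega)) ⟨Pi.single (Sum.inl 0) 1 + Pi.single (Sum.inr 0) 1, by
          rw [qPlus_apply]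
          simp [Cfsg.quadFormPlus, Fin.sum_univ_two]⟩
      rw [hQfun] at this
      exact this
    rw [hidx] at hC
    have hperf := commutator_sl_eq_top_of_card (ι := Fin 2) h4
    refine commutator_quotient_center_equiv' (lrHom F) ?_ ?_ π hπ hker
    · intro s
      rw [lrHom_apply]
      exact mul_mem (map_mem_commutator_of_perfect (lHom F) hperf s.1)
        (map_mem_commutator_of_perfect (rHom F) hperf s.2)
    · rw [hS, card_ker_lrHom_of_two_eq_zero h2]
      omega
  · -- odd characteristic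
    have hidx : (commutator ↥(Cfsg.isometryGroup F (Cfsg.quadFormPlus 2 F))).index = 4 := by
      have := Cfsg.Agent.Lib.Helper14.index_commutator_eq_four h2 (qPlus F 2) (nondeg_qPlus 2)
        (by simp)
      rw [hQfun] at this
      exact this
    rw [hidx] at hC
    refine commutator_quotient_center_equiv' (lrHom F) ?_ ?_ π hπ hker
    · intro s
      rw [lrHom_apply]
      exact mul_mem (sl_map_mem_commutator_of_index_four (lHom F) h2 hidx s.1)
        (sl_map_mem_commutator_of_index_four (rHom F) h2 hidx s.2)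
    · rw [hS]
      have hk := card_ker_lrHom_le (F := F)
      calc Nat.card ↥(commutator ↥(Cfsg.isometryGroup F (Cfsg.quadFormPlus 2 F)))
            * Nat.card ↥(lrHom F).ker
          ≤ Nat.card ↥(commutator ↥(Cfsg.isometryGroup F (Cfsg.quadFormPlus 2 F))) * 2 :=
            Nat.mul_le_mul_left _ hk
        _ = (Fintype.card F * (Fintype.card F ^ 2 - 1)) ^ 2 := by omega

end Main

end Cfsg.Agent.Lib.Helper43
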