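import Mathlib
import Cfsg.Prelude.Def_Classical
import Cfsg.Agent.Lib.Helper43.POmegaIso
import Cfsg.Agent.Lib.Helper43.SLMaps
import Cfsg.Agent.Lib.Helper43.OrthMinus
import Cfsg.Agent.Lib.Helper14.Spinor2
import Cfsg.Agent.Lib.Helper44.Dickson
import Cfsg.Agent.Lib.Helper5.PSL2
import Cfsg.Agent.S0824

/-!
# `PΩ⁻₄(q) ≅ PSL₂(q²)`: the action of `SL₂(q²)` on Hermitian matrices
-/

set_option autoImplicit false

namespace Cfsg.Agent.Lib.Helper43

section Herm

variable {F : Type*} [Field F] (a b : F)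

/-- The Hermitian matrix `[[x, w], [w̄, -y]]` attached to `(x, y, w)`. -/
def hMat (v : (Fin 1 ⊕ Fin 1) ⊕ Fin 2 → F) : Matrix (Fin 2) (Fin 2) (QuadraticAlgebra F (-b) a) :=
  !![algebraMap F (QuadraticAlgebra F (-b) a) (v (.inl (.inl 0))), ⟨v (.inr 0), v (.inr 1)⟩;
     star (⟨v (.inr 0), v (.inr 1)⟩ : QuadraticAlgebra F (-b) a),
       -algebraMap F (QuadraticAlgebra F (-b) a) (v (.inl (.inr 0)))]

/-- The coordinates of a (Hermitian) matrix. -/
def cVec (X : Matrix (Fin 2) (Fin 2) (QuadraticAlgebra F (-b) a)) :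
    (Fin 1 ⊕ Fin 1) ⊕ Fin 2 → F
  | .inl (.inl _) => (X 0 0).re
  | .inl (.inr _) => -(X 1 1).re
  | .inr 0 => (X 0 1).re
  | .inr 1 => (X 0 1).im

theorem cVec_hMat (v : (Fin 1 ⊕ Fin 1) ⊕ Fin 2 → F) : cVec a b (hMat a b v) = v := by
  funext i
  rcases i with (i | i) | i
  · rw [Subsingleton.elim i 0]
    simp [cVec, hMat]
  · rw [Subsingleton.elim i 0]
    simp [cVec, hMat]
  · fin_cases i
    · simp [cVec, hMat]
    · simp [cVec, hMat]

theorem hMat_add (v w : (Fin 1 ⊕ Fin 1) ⊕ Fin 2 → F) :
    hMat a b (v + w) = hMat a b v + hMat a b w := by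
  ext i j <;> fin_cases i <;> fin_cases j <;> simp [hMat] <;> ring

theorem hMat_smul (c : F) (v : (Fin 1 ⊕ Fin 1) ⊕ Fin 2 → F) :
    hMat a b (c • v) = algebraMap F (QuadraticAlgebra F (-b) a) c • hMat a b v := by
  ext i j <;> fin_cases i <;> fin_cases j <;> simp [hMat] <;> ring

theorem cVec_add (X Y : Matrix (Fin 2) (Fin 2) (QuadraticAlgebra F (-b) a)) :
    cVec a b (X + Y) = cVec a b X + cVec a b Y := by
  funext i
  rcases i with (i | i) | i
  · simp [cVec]
  · simp [cVec]
    ring
  · fin_cases i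
    · simp [cVec]
    · simp [cVec]

theorem cVec_smul (c : F) (X : Matrix (Fin 2) (Fin 2) (QuadraticAlgebra F (-b) a)) :
    cVec a b (algebraMap F (QuadraticAlgebra F (-b) a) c • X) = c • cVec a b X := by
  funext i
  rcases i with (i | i) | i
  · simp [cVec]
  · simp [cVec]
  · fin_cases i
    · simp [cVec]
    · simp [cVec]

theorem hMat_isHermitian (v : (Fin 1 ⊕ Fin 1) ⊕ Fin 2 → F) : (hMat a b v).IsHermitian := by
  ext i j <;> fin_cases i <;> fin_cases j <;> simp [hMat, Matrix.conjTranspose_apply]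

/-- Elements fixed by the conjugation are scalars (for an anisotropic form over a finite field). -/
theorem im_eq_zero_of_star_eq [Finite F]
    (hab : ∀ z₁ z₂ : F, z₁ ^ 2 + a * z₁ * z₂ + b * z₂ ^ 2 = 0 → z₁ = 0 ∧ z₂ = 0)
    (x : QuadraticAlgebra F (-b) a) (hx : star x = x) : x.im = 0 := by
  by_contra him
  have h1 : x.re + a * x.im = x.re := congrArg QuadraticAlgebra.re hx
  have h2 : -x.im = x.im := congrArg QuadraticAlgebra.im hx
  have ha : a = 0 := by
    have : a * x.im = 0 := by linear_combination h1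
    exact (mul_eq_zero.mp this).resolve_right him
  have h2' : (2 : F) = 0 := by
    have : (2 : F) * x.im = 0 := by linear_combination -h2
    exact (mul_eq_zero.mp this).resolve_right him
  have hinj : Function.Injective (fun e : F => e * e) := by
    intro e e' h
    have h3 : e * e = e' * e' := h
    have : (e - e') * (e - e') = 0 := by linear_combination h3 + (e' * e' - e * e') * h2'
    have := mul_self_eq_zero.mp this
    exact sub_eq_zero.mp this
  obtain ⟨e, he⟩ := (Finite.injective_iff_surjective.mp hinj) (-b)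
  have he' : e * e = -b := he
  have := (hab e 1 (by rw [ha]; linear_combination he')).2
  exact one_ne_zero this

theorem hMat_cVec (hstar : ∀ x : QuadraticAlgebra F (-b) a, star x = x → x.im = 0)
    (X : Matrix (Fin 2) (Fin 2) (QuadraticAlgebra F (-b) a)) (hX : X.IsHermitian) :
    hMat a b (cVec a b X) = X := by
  have h00 := hstar _ (hX.apply 0 0)
  have h11 := hstar _ (hX.apply 1 1)
  have h10 : star (X 0 1) = X 1 0 := hX.apply 1 0
  ext i j
  · fin_cases i <;> fin_cases j
    · simp [hMat, cVec]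
    · simp [hMat, cVec]
    · simp [hMat, cVec, ← h10]
    · simp [hMat, cVec]
  · fin_cases i <;> fin_cases j
    · simp [hMat, cVec, h00]
    · simp [hMat, cVec]
    · simp [hMat, cVec, ← h10]
    · simp [hMat, cVec, h11]

/-- The action of a matrix on Hermitian matrices, in coordinates. -/
def tLin (A : Matrix (Fin 2) (Fin 2) (QuadraticAlgebra F (-b) a)) :
    ((Fin 1 ⊕ Fin 1) ⊕ Fin 2 → F) →ₗ[F] ((Fin 1 ⊕ Fin 1) ⊕ Fin 2 → F) where
  toFun v := cVec a b (A * hMat a b v * A.conjTranspose)
  map_add' v w := by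
    rw [hMat_add, Matrix.mul_add, Matrix.add_mul, cVec_add]
  map_smul' c v := by
    rw [hMat_smul, Matrix.mul_smul, Matrix.smul_mul, cVec_smul]
    rfl

theorem tLin_apply (A : Matrix (Fin 2) (Fin 2) (QuadraticAlgebra F (-b) a))
    (v : (Fin 1 ⊕ Fin 1) ⊕ Fin 2 → F) :
    tLin a b A v = cVec a b (A * hMat a b v * A.conjTranspose) := rfl

theorem tLin_one : tLin a b (1 : Matrix (Fin 2) (Fin 2) (QuadraticAlgebra F (-b) a))
    = LinearMap.id := by
  apply LinearMap.ext
  intro v
  rw [tLin_apply, Matrix.conjTranspose_one, Matrix.one_mul, Matrix.mul_one, cVec_hMat]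
  rfl

theorem hMat_tLin (hstar : ∀ x : QuadraticAlgebra F (-b) a, star x = x → x.im = 0)
    (A : Matrix (Fin 2) (Fin 2) (QuadraticAlgebra F (-b) a))
    (v : (Fin 1 ⊕ Fin 1) ⊕ Fin 2 → F) :
    hMat a b (tLin a b A v) = A * hMat a b v * A.conjTranspose := by
  rw [tLin_apply, hMat_cVec a b hstar]
  exact Matrix.isHermitian_mul_mul_conjTranspose A (hMat_isHermitian a b v)

theorem tLin_mul (hstar : ∀ x : QuadraticAlgebra F (-b) a, star x = x → x.im = 0)
    (A B : Matrix (Fin 2) (Fin 2) (QuadraticAlgebra F (-b) a)) :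
    tLin a b (A * B) = tLin a b A ∘ₗ tLin a b B := by
  apply LinearMap.ext
  intro v
  rw [LinearMap.comp_apply, tLin_apply a b A, hMat_tLin a b hstar, tLin_apply,
    Matrix.conjTranspose_mul]
  simp only [Matrix.mul_assoc]

theorem neg_det_hMat (v : (Fin 1 ⊕ Fin 1) ⊕ Fin 2 → F) :
    -(hMat a b v).det = algebraMap F (QuadraticAlgebra F (-b) a) (Cfsg.quadFormMinus 1 F a b v) := by
  have hQ : Cfsg.quadFormMinus 1 F a b v = v (.inl (.inl 0)) * v (.inl (.inr 0))
      + (v (.inr 0) * v (.inr 0) + a * v (.inr 0) * v (.inr 1) + b * (v (.inr 1) * v (.inr 1))) := by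
    simp [Cfsg.quadFormMinus]
    ring
  rw [Matrix.det_fin_two, hQ]
  ext
  · simp [hMat]
    ring
  · simp [hMat]
    ring

theorem quadFormMinus_tLin (hstar : ∀ x : QuadraticAlgebra F (-b) a, star x = x → x.im = 0)
    (A : Matrix (Fin 2) (Fin 2) (QuadraticAlgebra F (-b) a)) (hA : A.det = 1)
    (v : (Fin 1 ⊕ Fin 1) ⊕ Fin 2 → F) :
    Cfsg.quadFormMinus 1 F a b (tLin a b A v) = Cfsg.quadFormMinus 1 F a b v := by
  apply QuadraticAlgebra.algebraMap_injective (a := -b) (b := a)
  rw [← neg_det_hMat, ← neg_det_hMat, hMat_tLin a b hstar, Matrix.det_mul, Matrix.det_mul,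
    Matrix.det_conjTranspose, hA, star_one, one_mul, mul_one]

theorem eq_one_or_neg_one_of_tLin [Fact (∀ r : F, r ^ 2 ≠ -b + a * r)]
    (hstar : ∀ x : QuadraticAlgebra F (-b) a, star x = x → x.im = 0)
    (A : Matrix (Fin 2) (Fin 2) (QuadraticAlgebra F (-b) a)) (hA : A.det = 1)
    (h : tLin a b A = LinearMap.id) : A = 1 ∨ A = -1 := by
  have hfix : ∀ v, A * hMat a b v * A.conjTranspose = hMat a b v := by
    intro v
    rw [← hMat_tLin a b hstar, h]
    rfl
  have hH1 : hMat a b (Pi.single (Sum.inl (Sum.inl 0)) 1)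
      = !![(1 : QuadraticAlgebra F (-b) a), 0; 0, 0] := by
    ext i j <;> fin_cases i <;> fin_cases j <;> simp [hMat]
  have hH2 : hMat a b (Pi.single (Sum.inl (Sum.inr 0)) 1)
      = !![(0 : QuadraticAlgebra F (-b) a), 0; 0, -1] := by
    ext i j <;> fin_cases i <;> fin_cases j <;> simp [hMat]
  have hH3 : hMat a b (Pi.single (Sum.inr 0) 1)
      = !![(0 : QuadraticAlgebra F (-b) a), 1; 1, 0] := by
    ext i j <;> fin_cases i <;> fin_cases j <;> simp [hMat] <;> rfl
  have f1 := hfix (Pi.single (Sum.inl (Sum.inl 0)) 1)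
  have f2 := hfix (Pi.single (Sum.inl (Sum.inr 0)) 1)
  have f3 := hfix (Pi.single (Sum.inr 0) 1)
  rw [hH1] at f1
  rw [hH2] at f2
  rw [hH3] at f3
  have hs : A 1 0 = 0 := by
    have := congrFun (congrFun f1 1) 1
    simp [Matrix.mul_apply, Fin.sum_univ_two, Matrix.conjTranspose_apply] at this
    exact this
  have hr : A 0 1 = 0 := by
    have := congrFun (congrFun f2 0) 0
    simp [Matrix.mul_apply, Fin.sum_univ_two, Matrix.conjTranspose_apply] at this
    exact this
  have ht : A 1 1 * star (A 1 1) = 1 := by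
    have := congrFun (congrFun f2 1) 1
    simp [Matrix.mul_apply, Fin.sum_univ_two, Matrix.conjTranspose_apply] at this
    exact this
  have hpt : A 0 0 * star (A 1 1) = 1 := by
    have := congrFun (congrFun f3 0) 1
    simp [Matrix.mul_apply, Fin.sum_univ_two, Matrix.conjTranspose_apply, hr, hs] at this
    exact this
  have hdet : A 0 0 * A 1 1 = 1 := by
    have := hA
    rw [Matrix.det_fin_two, hr, zero_mul, sub_zero] at this
    exact this
  have hp0 : A 0 0 ≠ 0 := by
    intro h0
    rw [h0, zero_mul] at hdet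
    exact zero_ne_one hdet
  have htt : star (A 1 1) = A 1 1 := by
    have : A 0 0 * (star (A 1 1) - A 1 1) = 0 := by linear_combination hpt - hdet
    exact sub_eq_zero.mp ((mul_eq_zero.mp this).resolve_left hp0)
  rw [htt] at ht hpt
  have hpt' : A 0 0 = A 1 1 := by
    have : (A 0 0 - A 1 1) * A 1 1 = 0 := by linear_combination hpt - ht
    have ht0 : A 1 1 ≠ 0 := by
      intro h0
      rw [h0, zero_mul] at ht
      exact zero_ne_one ht
    exact sub_eq_zero.mp ((mul_eq_zero.mp this).resolve_right ht0)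
  have hsq : (A 1 1 - 1) * (A 1 1 + 1) = 0 := by linear_combination ht
  rcases mul_eq_zero.mp hsq with h' | h'
  · left
    have h1 : A 1 1 = 1 := sub_eq_zero.mp h'
    apply Matrix.ext
    intro i j
    fin_cases i <;> fin_cases j
    · show A 0 0 = 1
      rw [hpt', h1]
    · show A 0 1 = 0
      exact hr
    · show A 1 0 = 0
      exact hs
    · show A 1 1 = 1
      exact h1
  · right
    have h1 : A 1 1 = -1 := by linear_combination h'
    apply Matrix.ext
    intro i j
    fin_cases i <;> fin_cases j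
    · show A 0 0 = -1
      rw [hpt', h1]
    · show A 0 1 = -0
      rw [hr, neg_zero]
    · show A 1 0 = -0
      rw [hs, neg_zero]
    · show A 1 1 = -1
      exact h1

/-- `SL₂(F[ω]) → O⁻₄(F)`: the action on Hermitian matrices. -/
def hermHom (hstar : ∀ x : QuadraticAlgebra F (-b) a, star x = x → x.im = 0) :
    Matrix.SpecialLinearGroup (Fin 2) (QuadraticAlgebra F (-b) a) →*
      ↥(Cfsg.isometryGroup F (Cfsg.quadFormMinus 1 F a b)) :=
  (MonoidHom.toHomUnits
    { toFun := fun A => LinearMap.toMatrix' (tLin a b A.1)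
      map_one' := by
        show LinearMap.toMatrix' (tLin a b 1) = 1
        rw [tLin_one, LinearMap.toMatrix'_id]
      map_mul' := fun A B => by
        show LinearMap.toMatrix' (tLin a b (A.1 * B.1)) = _
        rw [tLin_mul a b hstar, LinearMap.toMatrix'_comp] }).codRestrict _ (by
    intro A u _
    show Cfsg.quadFormMinus 1 F a b ((LinearMap.toMatrix' (tLin a b A.1)).mulVec u)
      = Cfsg.quadFormMinus 1 F a b u
    rw [LinearMap.toMatrix'_mulVec]
    exact quadFormMinus_tLin a b hstar A.1 A.2 u)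

theorem hermHom_coe (hstar : ∀ x : QuadraticAlgebra F (-b) a, star x = x → x.im = 0)
    (A : Matrix.SpecialLinearGroup (Fin 2) (QuadraticAlgebra F (-b) a)) :
    (((hermHom a b hstar A : ↥(Cfsg.isometryGroup F (Cfsg.quadFormMinus 1 F a b))) :
      Matrix.GeneralLinearGroup ((Fin 1 ⊕ Fin 1) ⊕ Fin 2) F) :
        Matrix ((Fin 1 ⊕ Fin 1) ⊕ Fin 2) ((Fin 1 ⊕ Fin 1) ⊕ Fin 2) F)
      = LinearMap.toMatrix' (tLin a b A.1) := rfl

theorem eq_one_or_neg_one_of_hermHom [Fact (∀ r : F, r ^ 2 ≠ -b + a * r)]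
    (hstar : ∀ x : QuadraticAlgebra F (-b) a, star x = x → x.im = 0)
    (A : Matrix.SpecialLinearGroup (Fin 2) (QuadraticAlgebra F (-b) a))
    (h : hermHom a b hstar A = 1) : A.1 = 1 ∨ A.1 = -1 := by
  apply eq_one_or_neg_one_of_tLin a b hstar A.1 A.2
  have h1 : LinearMap.toMatrix' (tLin a b A.1) = 1 := by
    rw [← hermHom_coe a b hstar, h]
    rfl
  apply LinearMap.toMatrix'.injective
  rw [h1, LinearMap.toMatrix'_id]

theorem card_ker_hermHom_le [Fact (∀ r : F, r ^ 2 ≠ -b + a * r)]
    (hstar : ∀ x : QuadraticAlgebra F (-b) a, star x = x → x.im = 0) :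
    Nat.card ↥(hermHom a b hstar).ker ≤ 2 := by
  classical
  let f : ↥(hermHom a b hstar).ker →
      ↥({1, -1} : Set (Matrix (Fin 2) (Fin 2) (QuadraticAlgebra F (-b) a))) := fun A =>
    ⟨A.1.1, by
      rcases eq_one_or_neg_one_of_hermHom a b hstar A.1 A.2 with h | h
      · exact Or.inl h
      · exact Or.inr h⟩
  have hf : Function.Injective f := by
    intro A B hAB
    apply Subtype.ext
    apply Subtype.ext
    have h1 : (f A).1 = (f B).1 := congrArg Subtype.val hAB
    exact h1
  calc Nat.card ↥(hermHom a b hstar).ker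
      ≤ Nat.card ↥({1, -1} : Set (Matrix (Fin 2) (Fin 2) (QuadraticAlgebra F (-b) a))) :=
        Nat.card_le_card_of_injective f hf
    _ = ({1, -1} : Set (Matrix (Fin 2) (Fin 2) (QuadraticAlgebra F (-b) a))).ncard := rfl
    _ ≤ 2 := (Set.ncard_insert_le _ _).trans (by rw [Set.ncard_singleton])

theorem card_ker_hermHom_of_two_eq_zero [Fact (∀ r : F, r ^ 2 ≠ -b + a * r)]
    (hstar : ∀ x : QuadraticAlgebra F (-b) a, star x = x → x.im = 0) (h2 : (2 : F) = 0) :
    Nat.card ↥(hermHom a b hstar).ker = 1 := by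
  rw [Nat.card_eq_one_iff_unique]
  refine ⟨⟨fun x y => ?_⟩, ⟨1⟩⟩
  have h2' : (2 : QuadraticAlgebra F (-b) a) = 0 := by
    have : (2 : QuadraticAlgebra F (-b) a) = algebraMap F _ (2 : F) := (map_ofNat _ 2).symm
    rw [this, h2, map_zero]
  have key : ∀ s : ↥(hermHom a b hstar).ker, s = 1 := by
    intro s
    apply Subtype.ext
    apply Subtype.ext
    rcases eq_one_or_neg_one_of_hermHom a b hstar s.1 s.2 with h | h
    · exact h
    · rw [h]
      apply Matrix.ext
      intro i j
      rw [Matrix.neg_apply]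
      show -(1 : Matrix (Fin 2) (Fin 2) (QuadraticAlgebra F (-b) a)) i j
        = (1 : Matrix (Fin 2) (Fin 2) (QuadraticAlgebra F (-b) a)) i j
      linear_combination (-((1 : Matrix (Fin 2) (Fin 2) (QuadraticAlgebra F (-b) a)) i j)) * h2'
  rw [key x, key y]

end Herm

section Main4m

variable {F K : Type*} [Field F] [Fintype F] [Field K] [Fintype K]

theorem nondeg_qMinus (a b : F)
    (hab : ∀ z₁ z₂ : F, z₁ ^ 2 + a * z₁ * z₂ + b * z₂ ^ 2 = 0 → z₁ = 0 ∧ z₂ = 0) (m : ℕ) :
    (QuadraticMap.polarBilin (qMinus a b m)).Nondegenerate :=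
  nondeg_congr (qGen (qBin a b) m) (qMinus a b m)
    (LinearEquiv.funCongrLeft F F (Equiv.sumComm (Fin 2) (Fin m ⊕ Fin m))) (fun _ => rfl)
    (nondeg_qGen (qBin a b) (nondeg_qBin a b (disc_ne_zero a b hab)) m)

/-- `PΩ⁻₄(q) ≅ PSL₂(q²)`. -/
theorem pomega4m_equiv {q : ℕ} (hF : Fintype.card F = q) (hK : Fintype.card K = q ^ 2) (a b : F)
    (hab : ∀ z₁ z₂ : F, z₁ ^ 2 + a * z₁ * z₂ + b * z₂ ^ 2 = 0 → z₁ = 0 ∧ z₂ = 0) :
    Nonempty (Cfsg.POmega F (Cfsg.quadFormMinus 1 F a b)
      ≃* Matrix.ProjectiveSpecialLinearGroup (Fin 2) K) := by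
  classical
  subst hF
  have hq : 2 ≤ Fintype.card F := Fintype.one_lt_card
  have hfact : Fact (∀ r : F, r ^ 2 ≠ -b + a * r) := ⟨fun r hr => by
    have := (hab r (-1) (by linear_combination hr)).2
    have h1 : (1 : F) = 0 := by linear_combination -this
    exact one_ne_zero h1⟩
  have hstar := im_eq_zero_of_star_eq a b hab
  letI : Fintype (QuadraticAlgebra F (-b) a) :=
    Fintype.ofEquiv (F × F) (QuadraticAlgebra.equivProd (-b) a).symm
  have hcardQA : Fintype.card (QuadraticAlgebra F (-b) a) = Fintype.card F ^ 2 := by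
    rw [Fintype.card_congr (QuadraticAlgebra.equivProd (-b) a), Fintype.card_prod, sq]
  let e : QuadraticAlgebra F (-b) a ≃+* K := FiniteField.ringEquivOfCardEq (by rw [hcardQA, hK])
  have hQfun : (⇑(qMinus a b 1) : ((Fin 1 ⊕ Fin 1) ⊕ Fin 2 → F) → F)
      = Cfsg.quadFormMinus 1 F a b := funext (qMinus_apply a b 1)
  have hq2 : 2 ^ 2 ≤ Fintype.card F ^ 2 := Nat.pow_le_pow_left hq 2
  have hsq : (Fintype.card F ^ 2 + 1) * (Fintype.card F ^ 2 - 1) = Fintype.card F ^ (2 * 2) - 1 :=
    sq_sub_one_nat (Fintype.card F) 2 (by omega)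
  have hO : Nat.card ↥(Cfsg.isometryGroup F (Cfsg.quadFormMinus 1 F a b))
      = 2 * (Fintype.card F ^ 2 * (Fintype.card F ^ (2 * 2) - 1)) := by
    rw [card_isometryGroup_eq _ (qMinus a b 1) (qMinus_apply a b 1), isoCard_qMinus,
      isoCard_minusTower a b hab 1, ← hsq]
    simp
    ring
  have hS : Nat.card (Matrix.SpecialLinearGroup (Fin 2) (QuadraticAlgebra F (-b) a))
      = Fintype.card F ^ 2 * (Fintype.card F ^ (2 * 2) - 1) := by
    rw [Cfsg.Agent.Lib.Helper5.card_SL2, hcardQA, ← pow_mul]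
  have hpos : 0 < Fintype.card F ^ 2 * (Fintype.card F ^ (2 * 2) - 1) := by
    have e4 : 2 ^ (2 * 2) ≤ Fintype.card F ^ (2 * 2) := Nat.pow_le_pow_left hq (2 * 2)
    exact Nat.mul_pos (by omega) (by omega)
  have : Finite ↥(Cfsg.isometryGroup F (Cfsg.quadFormMinus 1 F a b)) :=
    Nat.finite_of_card_ne_zero (by rw [hO]; omega)
  have : Finite (Matrix.SpecialLinearGroup (Fin 2) (QuadraticAlgebra F (-b) a)) :=
    Nat.finite_of_card_ne_zero (by rw [hS]; omega)
  have hC := Subgroup.card_mul_index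
    (commutator ↥(Cfsg.isometryGroup F (Cfsg.quadFormMinus 1 F a b)))
  rw [hO] at hC
  have hperf : commutator (Matrix.SpecialLinearGroup (Fin 2) (QuadraticAlgebra F (-b) a)) = ⊤ :=
    commutator_sl_eq_top_of_card (by rw [hcardQA]; omega)
  have himg : ∀ s, hermHom a b hstar s
      ∈ commutator ↥(Cfsg.isometryGroup F (Cfsg.quadFormMinus 1 F a b)) :=
    map_mem_commutator_of_perfect (hermHom a b hstar) hperf
  -- centrality lifting
  have hcen : ∀ s : Matrix.SpecialLinearGroup (Fin 2) (QuadraticAlgebra F (-b) a),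
      (∀ t, hermHom a b hstar (s * t) = hermHom a b hstar (t * s)) →
      s ∈ Subgroup.center (Matrix.SpecialLinearGroup (Fin 2) (QuadraticAlgebra F (-b) a)) := by
    intro s hs
    refine sl_mem_center_of_ker (hermHom a b hstar) (eq_one_or_neg_one_of_hermHom a b hstar) ?_ s hs
    intro h
    have h' : (2 : QuadraticAlgebra F (-b) a) * 2 = 0 := by
      rw [← h]
      simp
    exact mul_self_eq_zero.mp h'
  -- the quotient map onto `PSL₂(K)`
  let μ : Matrix.SpecialLinearGroup (Fin 2) (QuadraticAlgebra F (-b) a) →*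
      Matrix.SpecialLinearGroup (Fin 2) K :=
    Matrix.SpecialLinearGroup.map (e : QuadraticAlgebra F (-b) a →+* K)
  have hμinj : Function.Injective μ := by
    intro A B hAB
    apply Subtype.ext
    apply Matrix.ext
    intro i j
    have h1 := congrArg (fun X : Matrix.SpecialLinearGroup (Fin 2) K => X.1 i j) hAB
    exact e.injective h1
  have hμsurj : Function.Surjective μ := by
    intro B
    refine ⟨Matrix.SpecialLinearGroup.map (e.symm : K →+* QuadraticAlgebra F (-b) a) B, ?_⟩
    apply Subtype.ext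
    apply Matrix.ext
    intro i j
    show e (e.symm (B.1 i j)) = B.1 i j
    exact e.apply_symm_apply _
  let π : Matrix.SpecialLinearGroup (Fin 2) (QuadraticAlgebra F (-b) a) →*
      Matrix.ProjectiveSpecialLinearGroup (Fin 2) K :=
    (QuotientGroup.mk' (Subgroup.center (Matrix.SpecialLinearGroup (Fin 2) K))).comp μ
  have hπ : Function.Surjective π := (QuotientGroup.mk'_surjective _).comp hμsurj
  have hker : ∀ s, π s = 1 ↔ ∀ t, hermHom a b hstar (s * t) = hermHom a b hstar (t * s) := by
    intro s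
    have h1 : π s = 1 ↔ μ s ∈ Subgroup.center (Matrix.SpecialLinearGroup (Fin 2) K) :=
      QuotientGroup.eq_one_iff _
    rw [h1, Subgroup.mem_center_iff]
    constructor
    · intro h t
      have h3 : μ (s * t) = μ (t * s) := by
        rw [map_mul, map_mul, h (μ t)]
      rw [hμinj h3]
    · intro h B
      obtain ⟨t, rfl⟩ := hμsurj B
      have h3 := Subgroup.mem_center_iff.mp (hcen s h) t
      rw [← map_mul, ← map_mul, h3]
  refine commutator_quotient_center_equiv' (hermHom a b hstar) himg ?_ π hπ hker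
  rw [hS]
  by_cases h2 : (2 : F) = 0
  · have hidx : (commutator ↥(Cfsg.isometryGroup F (Cfsg.quadFormMinus 1 F a b))).index = 2 := by
      by_cases hF2 : Fintype.card F = 2
      · -- `q = 2`: `O⁻₄(2) ≅ S₅`
        have h01 : ∀ x : F, x = 0 ∨ x = 1 := by
          intro x
          by_contra hx
          push Not at hx
          have hcard : ({0, 1, x} : Finset F).card = 3 := by
            rw [Finset.card_insert_of_notMem, Finset.card_insert_of_notMem, Finset.card_singleton]
            · rw [Finset.mem_singleton]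
              exact fun h => hx.2 h.symm
            · rw [Finset.mem_insert, Finset.mem_singleton]
              rintro (h | h)
              · exact zero_ne_one h
              · exact hx.1 h.symm
          have := Finset.card_le_univ ({0, 1, x} : Finset F)
          rw [hcard, hF2] at this
          omega
        have hb : b = 1 := by
          rcases h01 b with h | h
          · exfalso
            have := (hab 0 1 (by rw [h]; ring)).2
            exact one_ne_zero this
          · exact h
        have ha : a = 1 := by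
          rcases h01 a with h | h
          · exfalso
            have := (hab 1 1 (by rw [h, hb]; linear_combination h2)).2
            exact one_ne_zero this
          · exact h
        subst ha hb
        obtain ⟨e5⟩ := Cfsg.Agent.S0824.result (F := F) hF2
        exact index_commutator_of_equiv_perm le_rfl e5
      · have := Cfsg.Agent.Lib.Helper44.index_commutator_char2 h2 (qMinus a b 1)
          (nondeg_qMinus a b hab 1) (Or.inl hF2) ⟨Pi.single (Sum.inr 0) 1, by
            rw [qMinus_apply]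
            simp [Cfsg.quadFormMinus]⟩
        rw [hQfun] at this
        exact this
    rw [hidx] at hC
    rw [card_ker_hermHom_of_two_eq_zero a b hstar h2]
    omega
  · have hidx : (commutator ↥(Cfsg.isometryGroup F (Cfsg.quadFormMinus 1 F a b))).index = 4 := by
      have := Cfsg.Agent.Lib.Helper14.index_commutator_eq_four h2 (qMinus a b 1)
        (nondeg_qMinus a b hab 1) (by simp)
      rw [hQfun] at this
      exact this
    rw [hidx] at hC
    have hk := card_ker_hermHom_le a b hstar
    calc Nat.card ↥(commutator ↥(Cfsg.isometryGroup F (Cfsg.quadFormMinus 1 F a b)))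
          * Nat.card ↥(hermHom a b hstar).ker
        ≤ Nat.card ↥(commutator ↥(Cfsg.isometryGroup F (Cfsg.quadFormMinus 1 F a b))) * 2 :=
          Nat.mul_le_mul_left _ hk
      _ = Fintype.card F ^ 2 * (Fintype.card F ^ (2 * 2) - 1) := by omega

end Main4m

end Cfsg.Agent.Lib.Helper43
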