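import Mathlib
import Cfsg.Prelude.Def_Classical
import Cfsg.Agent.Lib.Helper43.POmegaIso
import Cfsg.Agent.Lib.Helper43.SLMaps
import Cfsg.Agent.Lib.Helper43.POmega4
import Cfsg.Agent.Lib.Helper43.OrthOrders
import Cfsg.Agent.Lib.Helper14.Spinor2
import Cfsg.Agent.Lib.Helper44.Dickson
import Cfsg.Agent.Lib.Helper5.CardSL
import Cfsg.Agent.Lib.Helper5.SLGen

/-!
# `PΩ⁺₆(q) ≅ PSL₄(q)` (the Klein correspondence)
-/

set_option autoImplicit false

namespace Cfsg.Agent.Lib.Helper43

section Ext2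

variable {F : Type*} [Field F]

/-- The six pairs indexing a basis of the exterior square of `F⁴`. -/
def klPair : Fin 3 ⊕ Fin 3 → Fin 4 × Fin 4
  | .inl 0 => (0, 1)
  | .inl 1 => (0, 2)
  | .inl 2 => (0, 3)
  | .inr 0 => (2, 3)
  | .inr 1 => (3, 1)
  | .inr 2 => (1, 2)

/-- A `2 × 2` minor. -/
def minor2 (A : Matrix (Fin 4) (Fin 4) F) (p q : Fin 4 × Fin 4) : F :=
  A p.1 q.1 * A p.2 q.2 - A p.1 q.2 * A p.2 q.1

/-- The matrix of the exterior square. -/
def ext2 (A : Matrix (Fin 4) (Fin 4) F) : Matrix (Fin 3 ⊕ Fin 3) (Fin 3 ⊕ Fin 3) F :=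
  Matrix.of fun p q => minor2 A (klPair p) (klPair q)

theorem minor2_mul (A B : Matrix (Fin 4) (Fin 4) F) (p q : Fin 4 × Fin 4) :
    minor2 (A * B) p q = ∑ s : Fin 3 ⊕ Fin 3, minor2 A p (klPair s) * minor2 B (klPair s) q := by
  simp only [minor2, Matrix.mul_apply, Fin.sum_univ_four, Fintype.sum_sum_type, Fin.sum_univ_three,
    klPair]
  ring

theorem ext2_mul (A B : Matrix (Fin 4) (Fin 4) F) : ext2 (A * B) = ext2 A * ext2 B := by
  ext p q
  rw [Matrix.mul_apply]
  exact minor2_mul A B (klPair p) (klPair q)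

theorem ext2_one : ext2 (1 : Matrix (Fin 4) (Fin 4) F) = 1 := by
  ext p q
  rcases p with p | p <;> rcases q with q | q <;> fin_cases p <;> fin_cases q <;>
    simp [ext2, minor2, klPair, Matrix.one_apply]

theorem det_fin_four_minors (A : Matrix (Fin 4) (Fin 4) F) :
    A.det = minor2 A (0, 1) (0, 1) * minor2 A (2, 3) (2, 3)
      - minor2 A (0, 1) (0, 2) * minor2 A (2, 3) (1, 3)
      + minor2 A (0, 1) (0, 3) * minor2 A (2, 3) (1, 2)
      + minor2 A (0, 1) (1, 2) * minor2 A (2, 3) (0, 3)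
      - minor2 A (0, 1) (1, 3) * minor2 A (2, 3) (0, 2)
      + minor2 A (0, 1) (2, 3) * minor2 A (2, 3) (0, 1) := by
  rw [Matrix.det_succ_row_zero]
  simp only [Fin.sum_univ_four, Matrix.det_fin_three, minor2, Matrix.submatrix_apply]
  simp [Fin.succAbove]
  ring

theorem quadFormPlus_ext2 (A : Matrix (Fin 4) (Fin 4) F) (v : Fin 3 ⊕ Fin 3 → F) :
    Cfsg.quadFormPlus 3 F ((ext2 A).mulVec v) = A.det * Cfsg.quadFormPlus 3 F v := by
  rw [det_fin_four_minors]
  simp only [Cfsg.quadFormPlus, ext2, Matrix.mulVec, dotProduct, Matrix.of_apply,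
    Fintype.sum_sum_type, Fin.sum_univ_three, klPair, minor2]
  ring

/-- The exterior square as a hom `SL₄(F) → O⁺₆(F)`. -/
def ext2Hom (F : Type*) [Field F] :
    Matrix.SpecialLinearGroup (Fin 4) F →* ↥(Cfsg.isometryGroup F (Cfsg.quadFormPlus 3 F)) :=
  (MonoidHom.toHomUnits
    { toFun := fun A => ext2 A.1
      map_one' := ext2_one
      map_mul' := fun A B => ext2_mul A.1 B.1 }).codRestrict _ (by
    intro A u _
    show Cfsg.quadFormPlus 3 F ((ext2 A.1).mulVec u) = Cfsg.quadFormPlus 3 F u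
    rw [quadFormPlus_ext2, A.2, one_mul])

theorem ext2Hom_coe (A : Matrix.SpecialLinearGroup (Fin 4) F) :
    (((ext2Hom F A : ↥(Cfsg.isometryGroup F (Cfsg.quadFormPlus 3 F))) :
      Matrix.GeneralLinearGroup (Fin 3 ⊕ Fin 3) F) :
        Matrix (Fin 3 ⊕ Fin 3) (Fin 3 ⊕ Fin 3) F) = ext2 A.1 := rfl

theorem minor2_swap_left (A : Matrix (Fin 4) (Fin 4) F) (i j : Fin 4) (q : Fin 4 × Fin 4) :
    minor2 A (j, i) q = - minor2 A (i, j) q := by
  simp only [minor2]
  ring

theorem minor2_swap_right (A : Matrix (Fin 4) (Fin 4) F) (p : Fin 4 × Fin 4) (k l : Fin 4) :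
    minor2 A p (l, k) = - minor2 A p (k, l) := by
  simp only [minor2]
  ring

theorem exists_klPair (i j : Fin 4) (hij : i ≠ j) :
    ∃ p, klPair p = (i, j) ∨ klPair p = (j, i) := by
  revert i j
  decide

/-- If the exterior square of `A` is the identity, all its `2 × 2` minors are those of `1`. -/
theorem minor2_eq_of_ext2_eq_one (A : Matrix (Fin 4) (Fin 4) F) (h : ext2 A = 1)
    (i j k l : Fin 4) (hij : i ≠ j) (hkl : k ≠ l) :
    minor2 A (i, j) (k, l) = minor2 (1 : Matrix (Fin 4) (Fin 4) F) (i, j) (k, l) := by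
  have key : ∀ p q, minor2 A (klPair p) (klPair q)
      = minor2 (1 : Matrix (Fin 4) (Fin 4) F) (klPair p) (klPair q) := by
    intro p q
    have h1 : ext2 A p q = ext2 (1 : Matrix (Fin 4) (Fin 4) F) p q := by rw [h, ext2_one]
    exact h1
  obtain ⟨p, hp⟩ := exists_klPair i j hij
  obtain ⟨q, hq⟩ := exists_klPair k l hkl
  have h1 := key p q
  rcases hp with hp | hp <;> rcases hq with hq | hq
  · rw [hp, hq] at h1
    exact h1
  · rw [hp, hq, minor2_swap_right A _ k l, minor2_swap_right 1 _ k l] at h1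
    exact neg_injective h1
  · rw [hp, hq, minor2_swap_left A i j, minor2_swap_left 1 i j] at h1
    exact neg_injective h1
  · rw [hp, hq, minor2_swap_left A i j, minor2_swap_left 1 i j, minor2_swap_right A _ k l,
      minor2_swap_right 1 _ k l] at h1
    exact neg_injective (neg_injective h1)

theorem exists_ne_ne (i k : Fin 4) : ∃ j : Fin 4, j ≠ i ∧ j ≠ k := by
  revert i k
  decide

theorem eq_one_or_neg_one_of_ext2 (A : Matrix (Fin 4) (Fin 4) F) (h : ext2 A = 1) :
    A = 1 ∨ A = -1 := by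
  have H := minor2_eq_of_ext2_eq_one A h
  have hoff : ∀ k i : Fin 4, k ≠ i → A k i = 0 := by
    intro k i hki
    obtain ⟨j, hji, hjk⟩ := exists_ne_ne i k
    have m1 := H k i i j hki (Ne.symm hji)
    have m2 := H k j i j (Ne.symm hjk) (Ne.symm hji)
    have m3 := H i j i j (Ne.symm hji) (Ne.symm hji)
    have r1 : minor2 (1 : Matrix (Fin 4) (Fin 4) F) (k, i) (i, j) = 0 := by
      simp [minor2, Matrix.one_apply, hki, Ne.symm hjk]
    have r2 : minor2 (1 : Matrix (Fin 4) (Fin 4) F) (k, j) (i, j) = 0 := by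
      simp [minor2, Matrix.one_apply, hki, Ne.symm hjk]
    have r3 : minor2 (1 : Matrix (Fin 4) (Fin 4) F) (i, j) (i, j) = 1 := by
      simp [minor2, Matrix.one_apply, Ne.symm hji]
    rw [r1] at m1
    rw [r2] at m2
    rw [r3] at m3
    simp only [minor2] at m1 m2 m3
    linear_combination (-(A k i)) * m3 + (A i i) * m2 - (A j i) * m1
  have hdiag : ∀ i j : Fin 4, i ≠ j → A i i * A j j = 1 := by
    intro i j hij
    have m3 := H i j i j hij hij
    have r3 : minor2 (1 : Matrix (Fin 4) (Fin 4) F) (i, j) (i, j) = 1 := by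
      simp [minor2, Matrix.one_apply, hij]
    rw [r3] at m3
    simp only [minor2] at m3
    rw [hoff i j hij, zero_mul, sub_zero] at m3
    exact m3
  have hsq : ∀ i : Fin 4, A i i ^ 2 = 1 := by
    intro i
    obtain ⟨j, hji, -⟩ := exists_ne_ne i i
    obtain ⟨k, hki, hkj⟩ := exists_ne_ne i j
    have h1 := hdiag i j (Ne.symm hji)
    have h2 := hdiag i k (Ne.symm hki)
    have h3 := hdiag j k (Ne.symm hkj)
    linear_combination (A i i * A k k) * h1 + h2 - (A i i ^ 2) * h3
  have heq : ∀ i : Fin 4, A i i = A 0 0 := by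
    intro i
    by_cases hi : i = 0
    · rw [hi]
    · have h1 := hdiag i 0 hi
      have h2 := hsq 0
      linear_combination (A 0 0) * h1 - (A i i) * h2
  have h0 : (A 0 0 - 1) * (A 0 0 + 1) = 0 := by linear_combination hsq 0
  rcases mul_eq_zero.mp h0 with h' | h'
  · left
    ext i j
    by_cases hij : i = j
    · rw [hij, Matrix.one_apply_eq, heq j]
      exact sub_eq_zero.mp h'
    · rw [Matrix.one_apply_ne hij, hoff i j hij]
  · right
    ext i j
    by_cases hij : i = j
    · rw [hij, Matrix.neg_apply, Matrix.one_apply_eq, heq j]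
      linear_combination h'
    · rw [Matrix.neg_apply, Matrix.one_apply_ne hij, hoff i j hij, neg_zero]

theorem eq_one_or_neg_one_of_ext2Hom (A : Matrix.SpecialLinearGroup (Fin 4) F)
    (h : ext2Hom F A = 1) : A.1 = 1 ∨ A.1 = -1 := by
  apply eq_one_or_neg_one_of_ext2
  rw [← ext2Hom_coe, h]
  rfl

theorem sl4_mem_center_of_comm (s : Matrix.SpecialLinearGroup (Fin 4) F)
    (hs : ∀ t, ext2Hom F (s * t) = ext2Hom F (t * s)) :
    s ∈ Subgroup.center (Matrix.SpecialLinearGroup (Fin 4) F) := by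
  have key : ∀ A : Matrix.SpecialLinearGroup (Fin 4) F, s * A = A * s := by
    intro A
    refine Cfsg.Agent.Lib.Helper5.transvection_induction (fun A => s * A = A * s) ?_ ?_ A
    · intro i j hij c
      set t := Matrix.SpecialLinearGroup.transvection hij c with ht
      show s * t = t * s
      have h1 : ext2Hom F ((t * s)⁻¹ * (s * t)) = 1 := by
        rw [map_mul, map_inv, hs, inv_mul_cancel]
      have hk := eq_one_or_neg_one_of_ext2Hom _ h1
      have hmat : (s * t).1 = (t * s).1 * ((t * s)⁻¹ * (s * t)).1 := by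
        rw [← Matrix.SpecialLinearGroup.coe_mul, mul_inv_cancel_left]
      rcases hk with h | h
      · rw [h, mul_one] at hmat
        exact Subtype.ext hmat
      · rw [h, mul_neg, mul_one] at hmat
        have h3 : s.1 * t.1 = -(t.1 * s.1) := by
          rw [← Matrix.SpecialLinearGroup.coe_mul, ← Matrix.SpecialLinearGroup.coe_mul]
          exact hmat
        have h5 : s.1 * (s⁻¹).1 = 1 := by
          rw [← Matrix.SpecialLinearGroup.coe_mul, mul_inv_cancel]
          rfl
        have h4 : Matrix.trace (s.1 * t.1 * (s⁻¹).1) = Matrix.trace t.1 := by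
          rw [Matrix.trace_mul_comm, ← mul_assoc]
          have h6 : (s⁻¹).1 * s.1 = 1 := by
            rw [← Matrix.SpecialLinearGroup.coe_mul, inv_mul_cancel]
            rfl
          rw [h6, one_mul]
        rw [h3, neg_mul, mul_assoc, h5, mul_one, Matrix.trace_neg] at h4
        have h7 : Matrix.trace t.1 = 4 := by
          rw [ht, Matrix.SpecialLinearGroup.transvection_coe, Matrix.trace_add, Matrix.trace_one,
            Matrix.trace_single_eq_of_ne _ _ _ hij, add_zero]
          simp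
        rw [h7] at h4
        have h2 : (2 : F) = 0 := by
          have h8 : (2 : F) ^ 3 = 0 := by linear_combination -h4
          exact pow_eq_zero_iff (by norm_num) |>.mp h8
        apply Subtype.ext
        rw [hmat]
        ext a b
        rw [Matrix.neg_apply]
        linear_combination (-((t * s).1 a b)) * h2
    · intro A B hA hB
      show s * (A * B) = A * B * s
      rw [← mul_assoc, hA, mul_assoc, hB, mul_assoc]
  rw [Subgroup.mem_center_iff]
  intro g
  exact (key g).symm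

theorem card_ker_ext2Hom_le : Nat.card ↥(ext2Hom F).ker ≤ 2 := by
  classical
  let f : ↥(ext2Hom F).ker → ↥({1, -1} : Set (Matrix (Fin 4) (Fin 4) F)) := fun A =>
    ⟨A.1.1, by
      rcases eq_one_or_neg_one_of_ext2Hom A.1 A.2 with h | h
      · exact Or.inl h
      · exact Or.inr h⟩
  have hf : Function.Injective f := by
    intro A B hAB
    apply Subtype.ext
    apply Subtype.ext
    have h1 : (f A).1 = (f B).1 := congrArg Subtype.val hAB
    exact h1
  calc Nat.card ↥(ext2Hom F).ker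
      ≤ Nat.card ↥({1, -1} : Set (Matrix (Fin 4) (Fin 4) F)) := Nat.card_le_card_of_injective f hf
    _ = ({1, -1} : Set (Matrix (Fin 4) (Fin 4) F)).ncard := rfl
    _ ≤ 2 := (Set.ncard_insert_le _ _).trans (by rw [Set.ncard_singleton])

theorem card_ker_ext2Hom_of_two_eq_zero (h2 : (2 : F) = 0) : Nat.card ↥(ext2Hom F).ker = 1 := by
  rw [Nat.card_eq_one_iff_unique]
  refine ⟨⟨fun a b => ?_⟩, ⟨1⟩⟩
  have key : ∀ s : ↥(ext2Hom F).ker, s = 1 := by
    intro s
    apply Subtype.ext
    apply Subtype.ext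
    rcases eq_one_or_neg_one_of_ext2Hom s.1 s.2 with h | h
    · exact h
    · rw [h]
      ext i j
      rw [Matrix.neg_apply]
      show -(1 : Matrix (Fin 4) (Fin 4) F) i j = (1 : Matrix (Fin 4) (Fin 4) F) i j
      linear_combination (-((1 : Matrix (Fin 4) (Fin 4) F) i j)) * h2
  rw [key a, key b]

end Ext2

section Main6

variable {F : Type*} [Field F] [Fintype F]

theorem card_SL4 : Nat.card (Matrix.SpecialLinearGroup (Fin 4) F)
    = Fintype.card F ^ 6 * ((Fintype.card F ^ 2 - 1) * (Fintype.card F ^ 3 - 1)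
      * (Fintype.card F ^ 4 - 1)) := by
  have h1 := Cfsg.Agent.Lib.Helper5.card_GL_eq_card_SL_mul (n := Fin 4) (F := F)
  rw [Matrix.card_GL_field] at h1
  simp only [Fin.prod_univ_four, Fin.val_zero, Fin.val_one, Fin.val_two, pow_zero, pow_one] at h1
  have hq : 1 < Fintype.card F := Fintype.one_lt_card
  have f1 : Fintype.card F ^ 4 - Fintype.card F = Fintype.card F * (Fintype.card F ^ 3 - 1) := by
    rw [Nat.mul_sub, mul_one, ← pow_succ']
  have f2 : Fintype.card F ^ 4 - Fintype.card F ^ 2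
      = Fintype.card F ^ 2 * (Fintype.card F ^ 2 - 1) := by
    rw [Nat.mul_sub, mul_one, ← pow_add]
  have f3 : Fintype.card F ^ 4 - Fintype.card F ^ 3
      = Fintype.card F ^ 3 * (Fintype.card F - 1) := by
    rw [Nat.mul_sub, mul_one, ← pow_succ]
  have hpos : 0 < Fintype.card F - 1 := by omega
  apply Nat.eq_of_mul_eq_mul_right hpos
  rw [← h1]
  have h3 : ((3 : Fin 4) : ℕ) = 3 := rfl
  rw [h3, f1, f2, f3]
  ring

/-- `PΩ⁺₆(q) ≅ PSL₄(q)`. -/
theorem pomega6_equiv :
    Nonempty (Cfsg.POmega F (Cfsg.quadFormPlus 3 F)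
      ≃* Matrix.ProjectiveSpecialLinearGroup (Fin 4) F) := by
  classical
  have hq : 2 ≤ Fintype.card F := Fintype.one_lt_card
  have hQfun : (⇑(qPlus F 3) : (Fin 3 ⊕ Fin 3 → F) → F) = Cfsg.quadFormPlus 3 F :=
    funext (qPlus_apply 3)
  have hO : Nat.card ↥(Cfsg.isometryGroup F (Cfsg.quadFormPlus 3 F))
      = 2 * (Fintype.card F ^ 6 * ((Fintype.card F ^ 2 - 1) * (Fintype.card F ^ 3 - 1)
        * (Fintype.card F ^ 4 - 1))) := by
    rw [card_isometryGroup_eq _ (qPlus F 3) (qPlus_apply 3), isoCard_qPlus, isoCard_plusTower 2]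
    simp [Finset.prod_range_succ]
    ring
  have hS := card_SL4 (F := F)
  have hpos : 0 < Fintype.card F ^ 6 * ((Fintype.card F ^ 2 - 1) * (Fintype.card F ^ 3 - 1)
      * (Fintype.card F ^ 4 - 1)) := by
    have e2 : 2 ^ 2 ≤ Fintype.card F ^ 2 := Nat.pow_le_pow_left hq 2
    have e3 : 2 ^ 3 ≤ Fintype.card F ^ 3 := Nat.pow_le_pow_left hq 3
    have e4 : 2 ^ 4 ≤ Fintype.card F ^ 4 := Nat.pow_le_pow_left hq 4
    have e6 : 2 ^ 6 ≤ Fintype.card F ^ 6 := Nat.pow_le_pow_left hq 6
    apply Nat.mul_pos (by omega)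
    apply Nat.mul_pos (Nat.mul_pos (by omega) (by omega)) (by omega)
  have : Finite ↥(Cfsg.isometryGroup F (Cfsg.quadFormPlus 3 F)) :=
    Nat.finite_of_card_ne_zero (by rw [hO]; omega)
  have : Finite (Matrix.SpecialLinearGroup (Fin 4) F) :=
    Nat.finite_of_card_ne_zero (by rw [hS]; omega)
  have hC := Subgroup.card_mul_index (commutator ↥(Cfsg.isometryGroup F (Cfsg.quadFormPlus 3 F)))
  rw [hO] at hC
  have himg : ∀ s, ext2Hom F s ∈ commutator ↥(Cfsg.isometryGroup F (Cfsg.quadFormPlus 3 F)) :=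
    map_mem_commutator_of_perfect (ext2Hom F)
      (Cfsg.Agent.Lib.Helper5.commutator_SL_eq_top (by simp))
  refine commutator_quotient_center_equiv (ext2Hom F) himg ?_ sl4_mem_center_of_comm
  rw [hS]
  by_cases h2 : (2 : F) = 0
  · have hidx : (commutator ↥(Cfsg.isometryGroup F (Cfsg.quadFormPlus 3 F))).index = 2 := by
      have := Cfsg.Agent.Lib.Helper44.index_commutator_char2 h2 (qPlus F 3) (nondeg_qPlus 3)
        (Or.inr (by simp)) ⟨Pi.single (Sum.inl 0) 1 + Pi.single (Sum.inr 0) 1, by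
          rw [qPlus_apply]
          simp [Cfsg.quadFormPlus, Fin.sum_univ_three]⟩
      rw [hQfun] at this
      exact this
    rw [hidx] at hC
    rw [card_ker_ext2Hom_of_two_eq_zero h2]
    omega
  · have hidx : (commutator ↥(Cfsg.isometryGroup F (Cfsg.quadFormPlus 3 F))).index = 4 := by
      have := Cfsg.Agent.Lib.Helper14.index_commutator_eq_four h2 (qPlus F 3) (nondeg_qPlus 3)
        (by simp)
      rw [hQfun] at this
      exact this
    rw [hidx] at hC
    have hk := card_ker_ext2Hom_le (F := F)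
    calc Nat.card ↥(commutator ↥(Cfsg.isometryGroup F (Cfsg.quadFormPlus 3 F)))
          * Nat.card ↥(ext2Hom F).ker
        ≤ Nat.card ↥(commutator ↥(Cfsg.isometryGroup F (Cfsg.quadFormPlus 3 F))) * 2 :=
          Nat.mul_le_mul_left _ hk
      _ = Fintype.card F ^ 6 * ((Fintype.card F ^ 2 - 1) * (Fintype.card F ^ 3 - 1)
          * (Fintype.card F ^ 4 - 1)) := by omega

end Main6

end Cfsg.Agent.Lib.Helper43
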