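import Mathlib
import Cfsg.Prelude.Def_Classical
import Cfsg.Prelude.Def_ClassicalGeometry
import Cfsg.Agent.Lib.Helper43.POmegaIso
import Cfsg.Agent.Lib.Helper43.POmega6
import Cfsg.Agent.Lib.Helper43.OrthOdd
import Cfsg.Agent.Lib.Helper14.Spinor2
import Cfsg.Agent.Lib.Helper40.SympOrder
import Cfsg.Agent.Lib.Helper8.SpGen

/-!
# `PΩ₅(q) ≅ PSp₄(q)` for `q` odd
-/

set_option autoImplicit false

namespace Cfsg.Agent.Lib.Helper43

section Sp4

variable {F : Type*} [Field F]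

/-- Reindexing `Fin 4 → Fin 2 ⊕ Fin 2`. -/
def s4 : Fin 4 → Fin 2 ⊕ Fin 2
  | 0 => .inl 0
  | 1 => .inl 1
  | 2 => .inr 0
  | 3 => .inr 1

/-- `s4` as an equivalence. -/
def s4Equiv : Fin 4 ≃ Fin 2 ⊕ Fin 2 where
  toFun := s4
  invFun x := match x with
    | .inl 0 => 0
    | .inl 1 => 1
    | .inr 0 => 2
    | .inr 1 => 3
  left_inv := by decide
  right_inv := by decide

/-- A `(Fin 2 ⊕ Fin 2)`-matrix as a `Fin 4`-matrix. -/
def re4 (A : Matrix (Fin 2 ⊕ Fin 2) (Fin 2 ⊕ Fin 2) F) : Matrix (Fin 4) (Fin 4) F :=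
  A.submatrix s4 s4

theorem re4_apply (A : Matrix (Fin 2 ⊕ Fin 2) (Fin 2 ⊕ Fin 2) F) (i j : Fin 4) :
    re4 A i j = A (s4 i) (s4 j) := rfl

theorem re4_mul (A B : Matrix (Fin 2 ⊕ Fin 2) (Fin 2 ⊕ Fin 2) F) :
    re4 (A * B) = re4 A * re4 B :=
  (Matrix.submatrix_mul_equiv A B s4 s4Equiv s4).symm

theorem re4_one : re4 (1 : Matrix (Fin 2 ⊕ Fin 2) (Fin 2 ⊕ Fin 2) F) = 1 :=
  Matrix.submatrix_one_equiv s4Equiv

theorem det_re4 (A : Matrix (Fin 2 ⊕ Fin 2) (Fin 2 ⊕ Fin 2) F) : (re4 A).det = A.det :=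
  Matrix.det_submatrix_equiv_self s4Equiv A

theorem re4_injective : Function.Injective (re4 (F := F)) := by
  intro A B h
  ext i j
  have := congrFun (congrFun h (s4Equiv.symm i)) (s4Equiv.symm j)
  rw [re4_apply, re4_apply] at this
  have e1 : s4 (s4Equiv.symm i) = i := s4Equiv.apply_symm_apply i
  have e2 : s4 (s4Equiv.symm j) = j := s4Equiv.apply_symm_apply j
  rw [e1, e2] at this
  exact this

/-- The embedding of the five-dimensional space in the exterior square: index map. -/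
def pi5 : Unit ⊕ (Fin 2 ⊕ Fin 2) → Fin 3 ⊕ Fin 3
  | .inl _ => .inl 1
  | .inr (.inl 0) => .inl 0
  | .inr (.inl 1) => .inl 2
  | .inr (.inr 0) => .inr 0
  | .inr (.inr 1) => .inr 2

/-- The embedding matrix `E`. -/
def eMat (F : Type*) [Field F] : Matrix (Fin 3 ⊕ Fin 3) (Unit ⊕ (Fin 2 ⊕ Fin 2)) F :=
  Matrix.of fun p b => if p = pi5 b then 1 else if b = .inl () ∧ p = .inr 1 then 1 else 0

/-- The projection matrix `P`. -/
def pMat (F : Type*) [Field F] : Matrix (Unit ⊕ (Fin 2 ⊕ Fin 2)) (Fin 3 ⊕ Fin 3) F :=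
  Matrix.of fun a p => if p = pi5 a then 1 else 0

/-- The invariant linear functional. -/
def lvec (F : Type*) [Field F] : Fin 3 ⊕ Fin 3 → F :=
  Pi.single (.inl 1) 1 - Pi.single (.inr 1) 1

theorem pMat_mul_eMat : pMat F * eMat F = 1 := by
  ext a b
  rcases a with a | a | a <;> rcases b with b | b | b <;> fin_cases a <;> fin_cases b <;>
    simp [pMat, eMat, pi5, Matrix.mul_apply, Fin.sum_univ_three, Matrix.one_apply]

theorem eMat_mul_pMat :
    eMat F * pMat F = 1 + Matrix.vecMulVec (Pi.single (.inr 1) 1) (lvec F) := by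
  ext p q
  rcases p with p | p <;> rcases q with q | q <;> fin_cases p <;> fin_cases q <;>
    simp [pMat, eMat, pi5, lvec, Matrix.mul_apply, Fin.sum_univ_two, Matrix.one_apply,
      Matrix.vecMulVec_apply]

theorem lvec_vecMul_eMat : Matrix.vecMul (lvec F) (eMat F) = 0 := by
  funext b
  rcases b with b | b | b <;> fin_cases b <;>
    simp [eMat, pi5, lvec, Matrix.vecMul, dotProduct, Fin.sum_univ_three, sub_mul]

theorem symplectic_entry {B : Matrix (Fin 2 ⊕ Fin 2) (Fin 2 ⊕ Fin 2) F}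
    (hB : B ∈ Matrix.symplecticGroup (Fin 2) F) (x y : Fin 2 ⊕ Fin 2) :
    B (.inr 0) x * B (.inl 0) y - B (.inl 0) x * B (.inr 0) y
      + B (.inr 1) x * B (.inl 1) y - B (.inl 1) x * B (.inr 1) y = Matrix.J (Fin 2) F x y := by
  have hJ := SymplecticGroup.mem_iff'.mp hB
  have h1 := congrFun (congrFun hJ x) y
  rw [← h1]
  simp only [Matrix.mul_apply, Matrix.transpose_apply, Fintype.sum_sum_type, Fin.sum_univ_two,
    Matrix.J, Matrix.fromBlocks_apply₁₁, Matrix.fromBlocks_apply₁₂, Matrix.fromBlocks_apply₂₁,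
    Matrix.fromBlocks_apply₂₂, Matrix.zero_apply, Matrix.neg_apply, Matrix.one_apply]
  simp
  ring

theorem lvec_vecMul_ext2 {B : Matrix (Fin 2 ⊕ Fin 2) (Fin 2 ⊕ Fin 2) F}
    (hB : B ∈ Matrix.symplecticGroup (Fin 2) F) :
    Matrix.vecMul (lvec F) (ext2 (re4 B)) = lvec F := by
  funext q
  have key : Matrix.vecMul (lvec F) (ext2 (re4 B)) q
      = ext2 (re4 B) (.inl 1) q - ext2 (re4 B) (.inr 1) q := by
    simp [lvec, Matrix.vecMul, dotProduct, Fin.sum_univ_three, sub_mul]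
  rw [key]
  rcases q with q | q <;> fin_cases q
  · have := symplectic_entry hB (.inl 0) (.inl 1)
    simp [Matrix.J] at this
    simp [ext2, minor2, klPair, re4_apply, s4, lvec]
    linear_combination -this
  · have := symplectic_entry hB (.inl 0) (.inr 0)
    simp [Matrix.J] at this
    simp [ext2, minor2, klPair, re4_apply, s4, lvec]
    linear_combination -this
  · have := symplectic_entry hB (.inl 0) (.inr 1)
    simp [Matrix.J] at this
    simp [ext2, minor2, klPair, re4_apply, s4, lvec]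
    linear_combination -this
  · have := symplectic_entry hB (.inr 0) (.inr 1)
    simp [Matrix.J] at this
    simp [ext2, minor2, klPair, re4_apply, s4, lvec]
    linear_combination -this
  · have := symplectic_entry hB (.inr 1) (.inl 1)
    simp [Matrix.J] at this
    simp [ext2, minor2, klPair, re4_apply, s4, lvec]
    linear_combination -this
  · have := symplectic_entry hB (.inl 1) (.inr 0)
    simp [Matrix.J] at this
    simp [ext2, minor2, klPair, re4_apply, s4, lvec]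
    linear_combination -this

/-- The matrix `P Λ²(A) E` of the action on the five-dimensional space. -/
def m5 (A : Matrix (Fin 2 ⊕ Fin 2) (Fin 2 ⊕ Fin 2) F) :
    Matrix (Unit ⊕ (Fin 2 ⊕ Fin 2)) (Unit ⊕ (Fin 2 ⊕ Fin 2)) F :=
  pMat F * ext2 (re4 A) * eMat F

theorem eP_ext2_e {B : Matrix (Fin 2 ⊕ Fin 2) (Fin 2 ⊕ Fin 2) F}
    (hB : B ∈ Matrix.symplecticGroup (Fin 2) F) :
    eMat F * pMat F * (ext2 (re4 B) * eMat F) = ext2 (re4 B) * eMat F := by
  rw [eMat_mul_pMat, Matrix.add_mul, Matrix.one_mul, Matrix.vecMulVec_mul, ← Matrix.vecMul_vecMul,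
    lvec_vecMul_ext2 hB, lvec_vecMul_eMat]
  have : Matrix.vecMulVec (Pi.single (Sum.inr 1) 1 : Fin 3 ⊕ Fin 3 → F)
      (0 : Unit ⊕ (Fin 2 ⊕ Fin 2) → F) = 0 := by
    ext i j
    simp [Matrix.vecMulVec_apply]
  rw [this, add_zero]

theorem m5_one : m5 (1 : Matrix (Fin 2 ⊕ Fin 2) (Fin 2 ⊕ Fin 2) F) = 1 := by
  rw [m5, re4_one, ext2_one, Matrix.mul_one, pMat_mul_eMat]

theorem m5_mul (A : Matrix (Fin 2 ⊕ Fin 2) (Fin 2 ⊕ Fin 2) F)
    {B : Matrix (Fin 2 ⊕ Fin 2) (Fin 2 ⊕ Fin 2) F}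
    (hB : B ∈ Matrix.symplecticGroup (Fin 2) F) : m5 (A * B) = m5 A * m5 B := by
  unfold m5
  rw [re4_mul, ext2_mul]
  calc pMat F * (ext2 (re4 A) * ext2 (re4 B)) * eMat F
      = pMat F * ext2 (re4 A) * (ext2 (re4 B) * eMat F) := by simp only [Matrix.mul_assoc]
    _ = pMat F * ext2 (re4 A) * (eMat F * pMat F * (ext2 (re4 B) * eMat F)) := by
        rw [eP_ext2_e hB]
    _ = pMat F * ext2 (re4 A) * eMat F * (pMat F * ext2 (re4 B) * eMat F) := by
        simp only [Matrix.mul_assoc]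

theorem quadFormPlus_eMat (w : Unit ⊕ (Fin 2 ⊕ Fin 2) → F) :
    Cfsg.quadFormPlus 3 F ((eMat F).mulVec w) = Cfsg.quadFormOdd 2 F w := by
  simp [Cfsg.quadFormPlus, Cfsg.quadFormOdd, eMat, pi5, Matrix.mulVec, dotProduct,
    Fin.sum_univ_three, Fin.sum_univ_two]
  ring

theorem quadFormOdd_m5 {A : Matrix (Fin 2 ⊕ Fin 2) (Fin 2 ⊕ Fin 2) F}
    (hA : A ∈ Matrix.symplecticGroup (Fin 2) F) (w : Unit ⊕ (Fin 2 ⊕ Fin 2) → F) :
    Cfsg.quadFormOdd 2 F ((m5 A).mulVec w) = Cfsg.quadFormOdd 2 F w := by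
  rw [← quadFormPlus_eMat ((m5 A).mulVec w), Matrix.mulVec_mulVec]
  have h1 : eMat F * m5 A = ext2 (re4 A) * eMat F := by
    unfold m5
    rw [← eP_ext2_e hA]
    simp only [Matrix.mul_assoc]
  rw [h1, ← Matrix.mulVec_mulVec, quadFormPlus_ext2, det_re4, SymplecticGroup.det_eq_one hA,
    one_mul, quadFormPlus_eMat]

/-- `Sp₄(F) → O₅(F)`. -/
def m5Hom (F : Type*) [Field F] :
    ↥(Matrix.symplecticGroup (Fin 2) F) →*
      Matrix (Unit ⊕ (Fin 2 ⊕ Fin 2)) (Unit ⊕ (Fin 2 ⊕ Fin 2)) F where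
  toFun A := m5 A.1
  map_one' := m5_one
  map_mul' A B := m5_mul A.1 B.2

theorem m5Hom_apply (A : ↥(Matrix.symplecticGroup (Fin 2) F)) : m5Hom F A = m5 A.1 := rfl

theorem toHomUnits_m5Hom_mem (A : ↥(Matrix.symplecticGroup (Fin 2) F)) :
    (m5Hom F).toHomUnits A ∈ Cfsg.isometryGroup F (Cfsg.quadFormOdd 2 F) := by
  intro u _
  have h1 : (((m5Hom F).toHomUnits A : Matrix.GeneralLinearGroup (Unit ⊕ (Fin 2 ⊕ Fin 2)) F) :
      Matrix (Unit ⊕ (Fin 2 ⊕ Fin 2)) (Unit ⊕ (Fin 2 ⊕ Fin 2)) F) = m5 A.1 := rfl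
  show Cfsg.quadFormOdd 2 F ((((m5Hom F).toHomUnits A :
    Matrix.GeneralLinearGroup (Unit ⊕ (Fin 2 ⊕ Fin 2)) F) :
      Matrix (Unit ⊕ (Fin 2 ⊕ Fin 2)) (Unit ⊕ (Fin 2 ⊕ Fin 2)) F).mulVec u)
        = Cfsg.quadFormOdd 2 F u
  rw [h1]
  exact quadFormOdd_m5 A.2 u

def sp4ToO5 (F : Type*) [Field F] :
    ↥(Matrix.symplecticGroup (Fin 2) F) →* ↥(Cfsg.isometryGroup F (Cfsg.quadFormOdd 2 F)) :=
  ((m5Hom F).toHomUnits).codRestrict _ toHomUnits_m5Hom_mem

theorem sp4ToO5_coe (A : ↥(Matrix.symplecticGroup (Fin 2) F)) :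
    (((sp4ToO5 F A : ↥(Cfsg.isometryGroup F (Cfsg.quadFormOdd 2 F))) :
      Matrix.GeneralLinearGroup (Unit ⊕ (Fin 2 ⊕ Fin 2)) F) :
        Matrix (Unit ⊕ (Fin 2 ⊕ Fin 2)) (Unit ⊕ (Fin 2 ⊕ Fin 2)) F) = m5 A.1 := rfl

/-- Column information on the exterior square gives information on minors. -/
theorem minor2_col_of_ext2_col (A : Matrix (Fin 4) (Fin 4) F) (q : Fin 3 ⊕ Fin 3)
    (hcol : ∀ p, ext2 A p q = (1 : Matrix (Fin 3 ⊕ Fin 3) (Fin 3 ⊕ Fin 3) F) p q)
    (i j : Fin 4) (hij : i ≠ j) :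
    minor2 A (i, j) (klPair q) = minor2 (1 : Matrix (Fin 4) (Fin 4) F) (i, j) (klPair q) := by
  have key : ∀ p, minor2 A (klPair p) (klPair q)
      = minor2 (1 : Matrix (Fin 4) (Fin 4) F) (klPair p) (klPair q) := by
    intro p
    have h1 : ext2 A p q = ext2 (1 : Matrix (Fin 4) (Fin 4) F) p q := by rw [hcol, ext2_one]
    exact h1
  obtain ⟨p, hp⟩ := exists_klPair i j hij
  have h1 := key p
  rcases hp with hp | hp
  · rw [hp] at h1
    exact h1
  · rw [hp, minor2_swap_left A i j, minor2_swap_left 1 i j] at h1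
    exact neg_injective h1

theorem offdiag_of_col (A : Matrix (Fin 4) (Fin 4) F) (a b : Fin 4) (hab : a ≠ b)
    (H : ∀ i j, i ≠ j → minor2 A (i, j) (a, b) = minor2 (1 : Matrix (Fin 4) (Fin 4) F) (i, j) (a, b))
    (k : Fin 4) (hka : k ≠ a) (hkb : k ≠ b) : A k a = 0 ∧ A k b = 0 := by
  have m1 := H k a hka
  have m2 := H k b hkb
  have m3 := H a b hab
  have r1 : minor2 (1 : Matrix (Fin 4) (Fin 4) F) (k, a) (a, b) = 0 := by
    simp [minor2, Matrix.one_apply, hka, hkb]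
  have r2 : minor2 (1 : Matrix (Fin 4) (Fin 4) F) (k, b) (a, b) = 0 := by
    simp [minor2, Matrix.one_apply, hka, hkb]
  have r3 : minor2 (1 : Matrix (Fin 4) (Fin 4) F) (a, b) (a, b) = 1 := by
    simp [minor2, Matrix.one_apply, hab]
  rw [r1] at m1
  rw [r2] at m2
  rw [r3] at m3
  simp only [minor2] at m1 m2 m3
  constructor
  · linear_combination (-(A k a)) * m3 + (A a a) * m2 - (A b a) * m1
  · linear_combination (-(A k b)) * m3 - (A b b) * m1 + (A a b) * m2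

theorem mul_eMat_apply (L : Matrix (Fin 3 ⊕ Fin 3) (Fin 3 ⊕ Fin 3) F) (p : Fin 3 ⊕ Fin 3)
    (b : Unit ⊕ (Fin 2 ⊕ Fin 2)) :
    (L * eMat F) p b = L p (pi5 b) + (if b = .inl () then L p (.inr 1) else 0) := by
  rcases b with b | b | b <;> fin_cases b <;>
    simp [Matrix.mul_apply, eMat, pi5, Fin.sum_univ_three]

theorem re4_neg_one : re4 (-1 : Matrix (Fin 2 ⊕ Fin 2) (Fin 2 ⊕ Fin 2) F) = -1 := by
  ext i j
  have h1 : re4 (1 : Matrix (Fin 2 ⊕ Fin 2) (Fin 2 ⊕ Fin 2) F) i j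
      = (1 : Matrix (Fin 4) (Fin 4) F) i j := by rw [re4_one]
  rw [re4_apply] at h1
  rw [re4_apply, Matrix.neg_apply, Matrix.neg_apply, h1]

theorem eq_one_or_neg_one_of_m5 {A : Matrix (Fin 2 ⊕ Fin 2) (Fin 2 ⊕ Fin 2) F}
    (hA : A ∈ Matrix.symplecticGroup (Fin 2) F) (h : m5 A = 1) : A = 1 ∨ A = -1 := by
  have hLE : ext2 (re4 A) * eMat F = eMat F := by
    have h1 : eMat F * pMat F * (ext2 (re4 A) * eMat F) = eMat F * m5 A := by
      unfold m5
      simp only [Matrix.mul_assoc]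
    rw [← eP_ext2_e hA, h1, h, Matrix.mul_one]
  have hcol : ∀ b : Unit ⊕ (Fin 2 ⊕ Fin 2), b ≠ .inl () → ∀ p,
      ext2 (re4 A) p (pi5 b) = (1 : Matrix (Fin 3 ⊕ Fin 3) (Fin 3 ⊕ Fin 3) F) p (pi5 b) := by
    intro b hb p
    have h1 := congrFun (congrFun hLE p) b
    rw [mul_eMat_apply, if_neg hb, add_zero] at h1
    rw [h1, Matrix.one_apply]
    simp [eMat, hb]
  have H01 : ∀ i j, i ≠ j → minor2 (re4 A) (i, j) (0, 1)
      = minor2 (1 : Matrix (Fin 4) (Fin 4) F) (i, j) (0, 1) :=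
    minor2_col_of_ext2_col (re4 A) (.inl 0) (hcol (.inr (.inl 0)) (by simp))
  have H03 : ∀ i j, i ≠ j → minor2 (re4 A) (i, j) (0, 3)
      = minor2 (1 : Matrix (Fin 4) (Fin 4) F) (i, j) (0, 3) :=
    minor2_col_of_ext2_col (re4 A) (.inl 2) (hcol (.inr (.inl 1)) (by simp))
  have H23 : ∀ i j, i ≠ j → minor2 (re4 A) (i, j) (2, 3)
      = minor2 (1 : Matrix (Fin 4) (Fin 4) F) (i, j) (2, 3) :=
    minor2_col_of_ext2_col (re4 A) (.inr 0) (hcol (.inr (.inr 0)) (by simp))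
  have H12 : ∀ i j, i ≠ j → minor2 (re4 A) (i, j) (1, 2)
      = minor2 (1 : Matrix (Fin 4) (Fin 4) F) (i, j) (1, 2) :=
    minor2_col_of_ext2_col (re4 A) (.inr 2) (hcol (.inr (.inr 1)) (by simp))
  have z01 := offdiag_of_col (re4 A) 0 1 (by decide) H01
  have z03 := offdiag_of_col (re4 A) 0 3 (by decide) H03
  have z23 := offdiag_of_col (re4 A) 2 3 (by decide) H23
  have z12 := offdiag_of_col (re4 A) 1 2 (by decide) H12
  have hoff : ∀ k i : Fin 4, k ≠ i → re4 A k i = 0 := by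
    intro k i hki
    fin_cases k <;> fin_cases i <;>
      first
      | exact absurd rfl hki
      | exact (z01 _ (by decide) (by decide)).1
      | exact (z01 _ (by decide) (by decide)).2
      | exact (z03 _ (by decide) (by decide)).1
      | exact (z03 _ (by decide) (by decide)).2
      | exact (z23 _ (by decide) (by decide)).1
      | exact (z23 _ (by decide) (by decide)).2
      | exact (z12 _ (by decide) (by decide)).1
      | exact (z12 _ (by decide) (by decide)).2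
  have diag : ∀ a b : Fin 4, a ≠ b → (∀ i j, i ≠ j → minor2 (re4 A) (i, j) (a, b)
      = minor2 (1 : Matrix (Fin 4) (Fin 4) F) (i, j) (a, b)) → re4 A a a * re4 A b b = 1 := by
    intro a b hab H
    have m3 := H a b hab
    have r3 : minor2 (1 : Matrix (Fin 4) (Fin 4) F) (a, b) (a, b) = 1 := by
      simp [minor2, Matrix.one_apply, hab]
    rw [r3] at m3
    simp only [minor2] at m3
    rw [hoff a b hab, zero_mul, sub_zero] at m3
    exact m3
  have d01 := diag 0 1 (by decide) H01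
  have d03 := diag 0 3 (by decide) H03
  have d12 := diag 1 2 (by decide) H12
  have d02 : re4 A 0 0 * re4 A 2 2 = 1 := by
    have h1 := congrFun (congrFun hLE (.inl 1)) (.inl ())
    rw [mul_eMat_apply, if_pos rfl] at h1
    have h2 : eMat F (.inl 1) (.inl ()) = 1 := by simp [eMat, pi5]
    rw [h2] at h1
    have h3 : ext2 (re4 A) (.inl 1) (pi5 (.inl ())) + ext2 (re4 A) (.inl 1) (.inr 1)
        = re4 A 0 0 * re4 A 2 2 - re4 A 0 2 * re4 A 2 0
          + (re4 A 0 3 * re4 A 2 1 - re4 A 0 1 * re4 A 2 3) := rfl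
    rw [h3, hoff 0 2 (by decide), hoff 0 3 (by decide), hoff 0 1 (by decide)] at h1
    linear_combination h1
  have hsq : re4 A 0 0 ^ 2 = 1 := by
    linear_combination (re4 A 0 0 * re4 A 2 2) * d01 + d02 - (re4 A 0 0 ^ 2) * d12
  have e1 : re4 A 1 1 = re4 A 0 0 := by
    linear_combination (re4 A 0 0) * d01 - (re4 A 1 1) * hsq
  have e2 : re4 A 2 2 = re4 A 0 0 := by
    linear_combination (re4 A 0 0) * d02 - (re4 A 2 2) * hsq
  have e3 : re4 A 3 3 = re4 A 0 0 := by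
    linear_combination (re4 A 0 0) * d03 - (re4 A 3 3) * hsq
  have heq : ∀ i : Fin 4, re4 A i i = re4 A 0 0 := by
    intro i
    fin_cases i
    · rfl
    · exact e1
    · exact e2
    · exact e3
  have h0 : (re4 A 0 0 - 1) * (re4 A 0 0 + 1) = 0 := by linear_combination hsq
  rcases mul_eq_zero.mp h0 with h' | h'
  · left
    apply re4_injective
    rw [re4_one]
    ext i j
    by_cases hij : i = j
    · rw [hij, Matrix.one_apply_eq, heq j]
      exact sub_eq_zero.mp h'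
    · rw [Matrix.one_apply_ne hij, hoff i j hij]
  · right
    apply re4_injective
    rw [re4_neg_one]
    ext i j
    by_cases hij : i = j
    · rw [hij, Matrix.neg_apply, Matrix.one_apply_eq, heq j]
      linear_combination h'
    · rw [Matrix.neg_apply, Matrix.one_apply_ne hij, hoff i j hij, neg_zero]

theorem eq_one_or_neg_one_of_sp4ToO5 (A : ↥(Matrix.symplecticGroup (Fin 2) F))
    (h : sp4ToO5 F A = 1) : A.1 = 1 ∨ A.1 = -1 := by
  apply eq_one_or_neg_one_of_m5 A.2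
  rw [← sp4ToO5_coe, h]
  rfl

theorem sp4ToO5_mem_commutator (h2 : (2 : F) ≠ 0)
    (hidx : (commutator ↥(Cfsg.isometryGroup F (Cfsg.quadFormOdd 2 F))).index = 4)
    (A : ↥(Matrix.symplecticGroup (Fin 2) F)) :
    sp4ToO5 F A ∈ commutator ↥(Cfsg.isometryGroup F (Cfsg.quadFormOdd 2 F)) := by
  have hA : A ∈ Subgroup.closure (Cfsg.Agent.Lib.Helper8.spTSet 2 F) := by
    rw [Cfsg.Agent.Lib.Helper8.closure_spTSet]
    exact Subgroup.mem_top A
  refine Subgroup.closure_induction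
    (p := fun g _ => sp4ToO5 F g ∈ commutator ↥(Cfsg.isometryGroup F (Cfsg.quadFormOdd 2 F)))
    ?_ ?_ ?_ ?_ hA
  · rintro g ⟨w, c, hg⟩
    have hg' : g = Cfsg.Agent.Lib.Helper8.spT w c := Subtype.ext hg
    have h4 : (4 : F) ≠ 0 := by
      have : (4 : F) = 2 * 2 := by norm_num
      rw [this]
      exact mul_ne_zero h2 h2
    have hc : Cfsg.Agent.Lib.Helper8.spT w c = (Cfsg.Agent.Lib.Helper8.spT w (c / 4)) ^ 4 := by
      rw [pow_succ, pow_succ, pow_succ, pow_one, Cfsg.Agent.Lib.Helper8.spT_mul,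
        Cfsg.Agent.Lib.Helper8.spT_mul, Cfsg.Agent.Lib.Helper8.spT_mul]
      congr 1
      field_simp
      ring
    rw [hg', hc, map_pow, ← hidx]
    exact Subgroup.pow_index_mem _ _
  · rw [map_one]
    exact one_mem _
  · intro x y _ _ hx hy
    rw [map_mul]
    exact mul_mem hx hy
  · intro x _ hx
    rw [map_inv]
    exact inv_mem hx

theorem trace_sympTransvection (w : Fin 2 ⊕ Fin 2 → F) (c : F) :
    Matrix.trace (Cfsg.sympTransvection 2 w c) = 4 := by
  unfold Cfsg.sympTransvection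
  rw [Matrix.trace_add, Matrix.trace_smul, Matrix.trace_vecMulVec, Matrix.trace_one]
  have h1 : w ⬝ᵥ (Matrix.J (Fin 2) F).mulVec w = 0 :=
    Cfsg.Agent.Lib.Helper13.sympForm_self 2 w
  rw [h1, smul_zero, add_zero]
  simp

theorem sp4_mem_center_of_comm (h2 : (2 : F) ≠ 0) (s : ↥(Matrix.symplecticGroup (Fin 2) F))
    (hs : ∀ t, sp4ToO5 F (s * t) = sp4ToO5 F (t * s)) :
    s ∈ Subgroup.center ↥(Matrix.symplecticGroup (Fin 2) F) := by
  have key : ∀ g : ↥(Matrix.symplecticGroup (Fin 2) F), s * g = g * s := by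
    intro g
    have hg : g ∈ Subgroup.closure (Cfsg.Agent.Lib.Helper8.spTSet 2 F) := by
      rw [Cfsg.Agent.Lib.Helper8.closure_spTSet]
      exact Subgroup.mem_top g
    refine Subgroup.closure_induction (p := fun g _ => s * g = g * s) ?_ ?_ ?_ ?_ hg
    · rintro t ⟨w, c, ht⟩
      have h1 : sp4ToO5 F ((t * s)⁻¹ * (s * t)) = 1 := by
        rw [map_mul, map_inv, hs, inv_mul_cancel]
      have hk := eq_one_or_neg_one_of_sp4ToO5 _ h1
      have hmat : (s * t).1 = (t * s).1 * ((t * s)⁻¹ * (s * t)).1 := by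
        have : s * t = (t * s) * ((t * s)⁻¹ * (s * t)) := by rw [mul_inv_cancel_left]
        exact congrArg Subtype.val this
      rcases hk with h | h
      · rw [h, mul_one] at hmat
        exact Subtype.ext hmat
      · exfalso
        rw [h, mul_neg, mul_one] at hmat
        have h3 : s.1 * t.1 = -(t.1 * s.1) := hmat
        have h5 : s.1 * (s⁻¹).1 = 1 := congrArg Subtype.val (mul_inv_cancel s)
        have h6 : (s⁻¹).1 * s.1 = 1 := congrArg Subtype.val (inv_mul_cancel s)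
        have h4 : Matrix.trace (s.1 * t.1 * (s⁻¹).1) = Matrix.trace t.1 := by
          rw [Matrix.trace_mul_comm, ← mul_assoc, h6, one_mul]
        rw [h3, neg_mul, mul_assoc, h5, mul_one, Matrix.trace_neg, ht,
          trace_sympTransvection] at h4
        have h8 : (2 : F) ^ 3 = 0 := by linear_combination -h4
        exact h2 (pow_eq_zero_iff (by norm_num) |>.mp h8)
    · rw [mul_one, one_mul]
    · intro x y _ _ hx hy
      rw [← mul_assoc, hx, mul_assoc, hy, mul_assoc]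
    · intro x _ hx
      have : x⁻¹ * (s * x) * x⁻¹ = x⁻¹ * (x * s) * x⁻¹ := by rw [hx]
      rw [← mul_assoc, ← mul_assoc, mul_inv_cancel_right, inv_mul_cancel, one_mul] at this
      exact this.symm
  rw [Subgroup.mem_center_iff]
  intro g
  exact (key g).symm

theorem card_ker_sp4ToO5_le : Nat.card ↥(sp4ToO5 F).ker ≤ 2 := by
  classical
  let f : ↥(sp4ToO5 F).ker → ↥({1, -1} : Set (Matrix (Fin 2 ⊕ Fin 2) (Fin 2 ⊕ Fin 2) F)) :=
    fun A => ⟨A.1.1, by
      rcases eq_one_or_neg_one_of_sp4ToO5 A.1 A.2 with h | h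
      · exact Or.inl h
      · exact Or.inr h⟩
  have hf : Function.Injective f := by
    intro A B hAB
    apply Subtype.ext
    apply Subtype.ext
    have h1 : (f A).1 = (f B).1 := congrArg Subtype.val hAB
    exact h1
  calc Nat.card ↥(sp4ToO5 F).ker
      ≤ Nat.card ↥({1, -1} : Set (Matrix (Fin 2 ⊕ Fin 2) (Fin 2 ⊕ Fin 2) F)) :=
        Nat.card_le_card_of_injective f hf
    _ = ({1, -1} : Set (Matrix (Fin 2 ⊕ Fin 2) (Fin 2 ⊕ Fin 2) F)).ncard := rfl
    _ ≤ 2 := (Set.ncard_insert_le _ _).trans (by rw [Set.ncard_singleton])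

end Sp4

section Main5

variable {F : Type*} [Field F] [Fintype F]

/-- `PΩ₅(q) ≅ PSp₄(q)` for `q` odd. -/
theorem pomega5_equiv (hodd : Odd (Fintype.card F)) :
    Nonempty (Cfsg.POmega F (Cfsg.quadFormOdd 2 F) ≃* Cfsg.PSp 2 F) := by
  classical
  have h2 : (2 : F) ≠ 0 := Cfsg.Agent.Lib.Helper5.two_ne_zero_of_odd_card hodd
  have hq : 2 ≤ Fintype.card F := Fintype.one_lt_card
  have hQfun : (⇑(qGen (qSq F) 2) : (Unit ⊕ (Fin 2 ⊕ Fin 2) → F) → F) = Cfsg.quadFormOdd 2 F :=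
    funext (qGen_qSq_apply 2)
  have hidx : (commutator ↥(Cfsg.isometryGroup F (Cfsg.quadFormOdd 2 F))).index = 4 := by
    have := Cfsg.Agent.Lib.Helper14.index_commutator_eq_four h2 (qGen (qSq F) 2)
      (nondeg_qGen (qSq F) (nondeg_qSq h2) 2) (by simp)
    rw [hQfun] at this
    exact this
  have hO : Nat.card ↥(Cfsg.isometryGroup F (Cfsg.quadFormOdd 2 F))
      = 2 * (Fintype.card F ^ 4 * ((Fintype.card F ^ 2 - 1) * (Fintype.card F ^ 4 - 1))) := by
    rw [card_isometryGroup_eq _ (qGen (qSq F) 2) (qGen_qSq_apply 2), isoCard_oddTower h2]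
    simp [Finset.prod_range_succ]
    ring
  have hS : Nat.card ↥(Matrix.symplecticGroup (Fin 2) F)
      = Fintype.card F ^ 4 * ((Fintype.card F ^ 2 - 1) * (Fintype.card F ^ 4 - 1)) := by
    rw [Cfsg.Agent.Lib.Helper40.card_symplecticGroup]
    simp [Finset.prod_range_succ]
  have hpos : 0 < Fintype.card F ^ 4 * ((Fintype.card F ^ 2 - 1) * (Fintype.card F ^ 4 - 1)) := by
    have e2 : 2 ^ 2 ≤ Fintype.card F ^ 2 := Nat.pow_le_pow_left hq 2
    have e4 : 2 ^ 4 ≤ Fintype.card F ^ 4 := Nat.pow_le_pow_left hq 4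
    apply Nat.mul_pos (by omega)
    exact Nat.mul_pos (by omega) (by omega)
  have : Finite ↥(Cfsg.isometryGroup F (Cfsg.quadFormOdd 2 F)) :=
    Nat.finite_of_card_ne_zero (by rw [hO]; omega)
  have : Finite ↥(Matrix.symplecticGroup (Fin 2) F) :=
    Nat.finite_of_card_ne_zero (by rw [hS]; omega)
  have hC := Subgroup.card_mul_index (commutator ↥(Cfsg.isometryGroup F (Cfsg.quadFormOdd 2 F)))
  rw [hidx, hO] at hC
  refine commutator_quotient_center_equiv (sp4ToO5 F) (sp4ToO5_mem_commutator h2 hidx) ?_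
    (sp4_mem_center_of_comm h2)
  rw [hS]
  have hk := card_ker_sp4ToO5_le (F := F)
  calc Nat.card ↥(commutator ↥(Cfsg.isometryGroup F (Cfsg.quadFormOdd 2 F)))
        * Nat.card ↥(sp4ToO5 F).ker
      ≤ Nat.card ↥(commutator ↥(Cfsg.isometryGroup F (Cfsg.quadFormOdd 2 F))) * 2 :=
        Nat.mul_le_mul_left _ hk
    _ = Fintype.card F ^ 4 * ((Fintype.card F ^ 2 - 1) * (Fintype.card F ^ 4 - 1)) := by omega

end Main5

end Cfsg.Agent.Lib.Helper43
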