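import Mathlib
import Cfsg.Agent.S2573

/-!
Regular nilpotent matrices (`N ^ n = 0`, rank `n - 1`): cyclic vectors and the centraliser.
-/

set_option autoImplicit false

namespace Cfsg.Agent.Lib.Helper43

open Polynomial Matrix

section
variable {F : Type*} [Field F] {n : ℕ}

/-- Polynomials in `N` commute with anything commuting with `N`. -/
theorem commute_aeval {g N : Matrix (Fin n) (Fin n) F} (h : Commute g N) (p : F[X]) :
    Commute g (aeval N p) := by
  rw [aeval_eq_sum_range]
  apply Commute.sum_right
  intro i _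
  exact (h.pow_right i).smul_right _

/-- A polynomial with nonzero constant term in a nilpotent matrix is invertible. -/
theorem isUnit_aeval_of_coeff_zero_ne {N : Matrix (Fin n) (Fin n) F} (hN : IsNilpotent N) (r : F[X])
    (hr : r.coeff 0 ≠ 0) : IsUnit (aeval N r) := by
  have h1 : aeval N r = algebraMap F (Matrix (Fin n) (Fin n) F) (r.coeff 0) + aeval N r.divX * N := by
    conv_lhs => rw [← divX_mul_X_add r]
    rw [map_add, map_mul, aeval_X, aeval_C, add_comm]
  rw [h1]
  have hc : Commute (aeval N r.divX) N := (commute_aeval (Commute.refl N) _).symm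
  apply IsNilpotent.isUnit_add_left_of_commute (hc.isNilpotent_mul_left hN)
  · exact (IsUnit.mk0 _ hr).map (algebraMap F (Matrix (Fin n) (Fin n) F))
  · exact Algebra.commute_algebraMap_right _ _

/-- A regular nilpotent matrix has a cyclic vector. -/
theorem exists_cyclic_vector (N : Matrix (Fin n) (Fin n) F) (hn : 1 ≤ n)
    (hreg : N.rank = n - 1) : ∃ v : Fin n → F, (N ^ (n - 1)) *ᵥ v ≠ 0 := by
  by_contra hcon
  push Not at hcon
  set T : (Fin n → F) →ₗ[F] (Fin n → F) := Matrix.mulVecLin N with hT
  have hpow : ∀ k, Matrix.mulVecLin (N ^ k) = T ^ k := by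
    intro k
    induction k with
    | zero => simp [Matrix.mulVecLin_one]; rfl
    | succ k ih => rw [pow_succ, Matrix.mulVecLin_mul, ih, pow_succ]; rfl
  have hker1 : Module.finrank F (LinearMap.ker T) ≤ 1 := by
    have h1 := T.finrank_range_add_finrank_ker
    have h2 : Module.finrank F (LinearMap.range T) = n - 1 := hreg
    simp only [Module.finrank_pi, Fintype.card_fin] at h1
    omega
  have h3 := Cfsg.Agent.S2573.finrank_ker_pow_le T hker1 (n - 1)
  have h4 : LinearMap.ker (T ^ (n - 1)) = ⊤ := by
    rw [eq_top_iff]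
    intro x _
    rw [LinearMap.mem_ker, ← hpow]
    exact hcon x
  rw [h4, finrank_top, Module.finrank_pi, Fintype.card_fin] at h3
  omega

variable (N : Matrix (Fin n) (Fin n) F) (hnil : N ^ n = 0) (v : Fin n → F)
  (hv : (N ^ (n - 1)) *ᵥ v ≠ 0)

include hnil hv in
/-- Nonzero polynomials of degree `< n` in `N` do not kill a cyclic vector. -/
theorem aeval_mulVec_ne_zero (p : F[X]) (hp : p ≠ 0) (hdeg : p.natDegree < n) :
    (aeval N p) *ᵥ v ≠ 0 := by
  obtain ⟨r, hpr, hr⟩ := exists_eq_pow_rootMultiplicity_mul_and_not_dvd p hp 0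
  set k := rootMultiplicity 0 p with hk
  rw [C_0, sub_zero] at hpr hr
  have hr0 : r.coeff 0 ≠ 0 := fun h => hr (X_dvd_iff.mpr h)
  have hrne : r ≠ 0 := by rintro rfl; exact hr0 (by simp)
  have hkn : k ≤ n - 1 := by
    have : p.natDegree = k + r.natDegree := by
      conv_lhs => rw [hpr]
      rw [natDegree_mul (pow_ne_zero _ X_ne_zero) hrne, natDegree_X_pow]
    omega
  have hNnil : IsNilpotent N := ⟨n, hnil⟩
  have hunit := isUnit_aeval_of_coeff_zero_ne hNnil r hr0
  intro h0
  have h1 : aeval N p = aeval N r * N ^ k := by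
    conv_lhs => rw [hpr]
    rw [map_mul, map_pow, aeval_X]
    exact ((commute_aeval (Commute.refl N) r).pow_left k).eq
  rw [h1, ← Matrix.mulVec_mulVec] at h0
  have h2 : (N ^ k) *ᵥ v = 0 := by
    have hinj := Matrix.mulVec_injective_iff_isUnit.mpr hunit
    apply hinj
    rw [h0, Matrix.mulVec_zero]
  apply hv
  have h3 : N ^ (n - 1) = N ^ (n - 1 - k) * N ^ k := by
    rw [← pow_add]; congr 1; omega
  rw [h3, ← Matrix.mulVec_mulVec, h2, Matrix.mulVec_zero]

/-- Evaluation at a cyclic vector, on polynomials of degree `< n`. -/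
noncomputable def evalAt : (degreeLT F n) →ₗ[F] (Fin n → F) where
  toFun p := (aeval N (p : F[X])) *ᵥ v
  map_add' p q := by
    simp only [Submodule.coe_add, map_add, Matrix.add_mulVec]
  map_smul' c p := by
    simp only [Submodule.coe_smul, map_smul, Matrix.smul_mulVec, RingHom.id_apply]

include hnil hv in
theorem evalAt_injective : Function.Injective (evalAt N v) := by
  rw [← LinearMap.ker_eq_bot, LinearMap.ker_eq_bot']
  intro p hp
  by_contra hne
  have hne' : (p : F[X]) ≠ 0 := fun h => hne (Subtype.ext h)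
  have hdeg : (p : F[X]).natDegree < n := by
    have := mem_degreeLT.mp p.2
    by_cases hn0 : n = 0
    · subst hn0
      exfalso
      have h' : (p : F[X]).degree < 0 := by exact_mod_cast this
      exact hne' (degree_eq_bot.mp (by simpa using h'))
    · exact (natDegree_lt_iff_degree_lt hne').mpr this
  exact aeval_mulVec_ne_zero N hnil v hv p hne' hdeg hp

include hnil hv in
theorem evalAt_surjective : Function.Surjective (evalAt N v) := by
  have hfr : Module.finrank F (degreeLT F n) = Module.finrank F (Fin n → F) := by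
    rw [(degreeLTEquiv F n).finrank_eq]
  exact (LinearMap.injective_iff_surjective_of_finrank_eq_finrank hfr).mp
    (evalAt_injective N hnil v hv)

include hnil hv in
/-- A matrix commuting with `N` is determined by its value on a cyclic vector. -/
theorem eq_aeval_of_commute (g : Matrix (Fin n) (Fin n) F) (hg : Commute g N) (p : F[X])
    (hgp : g *ᵥ v = (aeval N p) *ᵥ v) : g = aeval N p := by
  apply Matrix.toLin'.injective
  apply LinearMap.ext
  intro x
  obtain ⟨s, rfl⟩ := evalAt_surjective N hnil v hv x
  show g *ᵥ ((aeval N (s : F[X])) *ᵥ v) = (aeval N p) *ᵥ ((aeval N (s : F[X])) *ᵥ v)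
  rw [Matrix.mulVec_mulVec, (commute_aeval hg _).eq, ← Matrix.mulVec_mulVec, hgp,
    Matrix.mulVec_mulVec, Matrix.mulVec_mulVec]
  congr 1
  exact (commute_aeval (commute_aeval (Commute.refl N) (s : F[X])).symm p).eq

end

end Cfsg.Agent.Lib.Helper43
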