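import Mathlib

/-!
A square matrix over a field is similar to its transpose.
-/

set_option autoImplicit false

namespace Cfsg.Agent.Lib.Helper43

open Polynomial

/-- On a cyclic torsion module `F[X] ⧸ (g)` there is a nondegenerate bilinear form for which
multiplication by `X` is self-adjoint. -/
theorem cyclic_form {F : Type*} [Field F] (g : F[X]) (hg : g ≠ 0) :
    ∃ B : LinearMap.BilinForm F (F[X] ⧸ Ideal.span {g}),
      (∀ a b, B ((X : F[X]) • a) b = B a ((X : F[X]) • b)) ∧ (∀ b, (∀ a, B a b = 0) → b = 0) := by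
  classical
  set h : F[X] := g * C g.leadingCoeff⁻¹ with hh
  have hmonic : h.Monic := monic_mul_leadingCoeff_inv hg
  have hunit : IsUnit (C g.leadingCoeff⁻¹ : F[X]) := by
    apply Polynomial.isUnit_C.mpr
    exact IsUnit.mk0 _ (inv_ne_zero (leadingCoeff_ne_zero.mpr hg))
  have hdvd : ∀ p, h ∣ p ↔ g ∣ p := fun p => hunit.mul_right_dvd
  set d := h.natDegree with hd
  let lam : F[X] →ₗ[F] F := (lcoeff F (d - 1)) ∘ₗ (modByMonicHom h)
  have hlam : ∀ p, lam p = (p %ₘ h).coeff (d - 1) := fun p => rfl
  have hcongr : ∀ p p', g ∣ p - p' → lam p = lam p' := by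
    intro p p' hp
    rw [hlam, hlam, modByMonic_eq_of_dvd_sub hmonic ((hdvd _).mpr hp)]
  let mk : F[X] →ₗ[F] (F[X] ⧸ Ideal.span {g}) := (Ideal.Quotient.mkₐ F (Ideal.span {g})).toLinearMap
  have hmk : ∀ p, mk p = Ideal.Quotient.mk (Ideal.span {g}) p := fun p => rfl
  have hmk0 : ∀ p, mk p = 0 ↔ g ∣ p := by
    intro p
    rw [hmk, Ideal.Quotient.eq_zero_iff_mem, Ideal.mem_span_singleton]
  obtain ⟨s, hs⟩ := LinearMap.exists_rightInverse_of_surjective mk
    (LinearMap.range_eq_top.mpr Ideal.Quotient.mk_surjective)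
  have hs' : ∀ a, mk (s a) = a := fun a => LinearMap.congr_fun hs a
  let B : LinearMap.BilinForm F (F[X] ⧸ Ideal.span {g}) :=
    ((LinearMap.mul F F[X]).compr₂ lam).compl₁₂ s s
  have hB : ∀ a b, B a b = lam (s a * s b) := fun a b => rfl
  have hBmk : ∀ p q, B (mk p) (mk q) = lam (p * q) := by
    intro p q
    rw [hB]
    apply hcongr
    have h1 : g ∣ s (mk p) - p := by
      rw [← hmk0, map_sub, sub_eq_zero]
      exact hs' (mk p)
    have h2 : g ∣ s (mk q) - q := by
      rw [← hmk0, map_sub, sub_eq_zero]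
      exact hs' (mk q)
    have : s (mk p) * s (mk q) - p * q = (s (mk p) - p) * s (mk q) + p * (s (mk q) - q) := by ring
    rw [this]
    exact dvd_add (dvd_mul_of_dvd_left h1 _) (dvd_mul_of_dvd_right h2 _)
  refine ⟨B, ?_, ?_⟩
  · intro a b
    obtain ⟨p, rfl⟩ := Ideal.Quotient.mk_surjective a
    obtain ⟨q, rfl⟩ := Ideal.Quotient.mk_surjective b
    have e1 : (X : F[X]) • (Ideal.Quotient.mk (Ideal.span {g}) p) = mk (X * p) := rfl
    have e2 : (X : F[X]) • (Ideal.Quotient.mk (Ideal.span {g}) q) = mk (X * q) := rfl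
    rw [e1, e2, ← hmk, ← hmk, hBmk, hBmk]
    congr 1
    ring
  · intro b hb
    obtain ⟨q, rfl⟩ := Ideal.Quotient.mk_surjective b
    by_contra hne
    set r := q %ₘ h with hr
    have hr0 : r ≠ 0 := by
      intro h0
      apply hne
      have : h ∣ q := (modByMonic_eq_zero_iff_dvd hmonic).mp h0
      exact (hmk0 q).mpr ((hdvd q).mp this)
    have hdeg : r.degree < h.degree := degree_modByMonic_lt q hmonic
    have hk : r.natDegree < d := natDegree_lt_natDegree hr0 hdeg
    have hb' := hb (mk (X ^ (d - 1 - r.natDegree)))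
    rw [← hmk, hBmk, hlam] at hb'
    have e : (X ^ (d - 1 - r.natDegree) * q) %ₘ h = X ^ (d - 1 - r.natDegree) * r := by
      have h1 : (X ^ (d - 1 - r.natDegree) * q) %ₘ h = (X ^ (d - 1 - r.natDegree) * r) %ₘ h := by
        apply modByMonic_eq_of_dvd_sub hmonic
        rw [← mul_sub]
        apply dvd_mul_of_dvd_right
        have h2 := modByMonic_add_div q h
        refine ⟨q /ₘ h, ?_⟩
        rw [hr]
        linear_combination - h2
      rw [h1, modByMonic_eq_self_iff hmonic]
      rw [degree_mul, degree_X_pow, degree_eq_natDegree hr0, degree_eq_natDegree hmonic.ne_zero]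
      norm_cast
      omega
    rw [e, coeff_X_pow_mul', if_pos (by omega)] at hb'
    have h3 : r.coeff r.natDegree = 0 := by
      have h4 : d - 1 - (d - 1 - r.natDegree) = r.natDegree := by omega
      rw [h4] at hb'
      exact hb'
    exact hr0 (leadingCoeff_eq_zero.mp h3)

/-- For an endomorphism `T` of a finite-dimensional space there is a nondegenerate bilinear form for
which `T` is self-adjoint. -/
theorem exists_selfadjoint_form {F : Type*} [Field F] {V : Type*} [AddCommGroup V] [Module F V]
    [FiniteDimensional F V] (T : Module.End F V) :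
    ∃ B : LinearMap.BilinForm F V, (∀ x y, B (T x) y = B x (T y)) ∧ (∀ y, (∀ x, B x y = 0) → y = 0) := by
  classical
  have htors : Module.IsTorsion F[X] (Module.AEval F V T) :=
    Module.AEval.isTorsion_of_finiteDimensional F V T
  obtain ⟨ι, _, p, hp, e, ⟨φ⟩⟩ := Module.equiv_directSum_of_isTorsion htors
  have hne : ∀ i, p i ^ e i ≠ 0 := fun i => pow_ne_zero _ (hp i).ne_zero
  choose Bi hBi1 hBi2 using fun i => cyclic_form (p i ^ e i) (hne i)
  let c : ∀ i, (Module.AEval F V T) →ₗ[F] (F[X] ⧸ Ideal.span {p i ^ e i}) := fun i =>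
    ((DirectSum.component F[X] ι (fun i => F[X] ⧸ Ideal.span {p i ^ e i}) i).comp
      φ.toLinearMap).restrictScalars F
  have hcX : ∀ i x, c i ((X : F[X]) • x) = (X : F[X]) • c i x := by
    intro i x
    exact map_smul ((DirectSum.component F[X] ι (fun i => F[X] ⧸ Ideal.span {p i ^ e i}) i).comp
      φ.toLinearMap) X x
  let BM : LinearMap.BilinForm F (Module.AEval F V T) := ∑ i, (Bi i).compl₁₂ (c i) (c i)
  have hBM : ∀ x y, BM x y = ∑ i, Bi i (c i x) (c i y) := by
    intro x y
    simp [BM, LinearMap.sum_apply]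
  let o : V ≃ₗ[F] Module.AEval F V T := Module.AEval.of F V T
  refine ⟨BM.compl₁₂ o.toLinearMap o.toLinearMap, ?_, ?_⟩
  · intro x y
    show BM (o (T x)) (o y) = BM (o x) (o (T y))
    have h1 : o (T x) = (X : F[X]) • o x := (Module.AEval'.X_smul_of T x).symm
    have h2 : o (T y) = (X : F[X]) • o y := (Module.AEval'.X_smul_of T y).symm
    rw [h1, h2, hBM, hBM]
    apply Finset.sum_congr rfl
    intro i _
    rw [hcX, hcX, hBi1]
  · intro y hy
    by_contra hy0
    have hoy : φ (o y) ≠ 0 := by
      intro h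
      apply hy0
      have := φ.injective (h.trans (map_zero φ).symm)
      exact o.injective (this.trans (map_zero o).symm)
    obtain ⟨i, hi⟩ : ∃ i, c i (o y) ≠ 0 := by
      by_contra hcon
      push Not at hcon
      apply hoy
      apply DirectSum.ext_component F[X]
      intro j
      rw [map_zero]
      exact hcon j
    obtain ⟨a, ha⟩ : ∃ a, Bi i a (c i (o y)) ≠ 0 := by
      by_contra hcon
      push Not at hcon
      exact hi (hBi2 i _ hcon)
    apply ha
    set x0 : Module.AEval F V T :=
      φ.symm (DirectSum.lof F[X] ι (fun i => F[X] ⧸ Ideal.span {p i ^ e i}) i a) with hx0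
    have hφx0 : φ x0 = DirectSum.lof F[X] ι (fun i => F[X] ⧸ Ideal.span {p i ^ e i}) i a :=
      LinearEquiv.apply_symm_apply φ _
    have hcj : ∀ j, c j x0 =
        (DirectSum.component F[X] ι (fun i => F[X] ⧸ Ideal.span {p i ^ e i}) j) (φ x0) := fun j => rfl
    have hx : BM (o (o.symm x0)) (o y) = 0 := hy (o.symm x0)
    rw [LinearEquiv.apply_symm_apply, hBM] at hx
    rw [Finset.sum_eq_single i] at hx
    · rw [hcj, hφx0, DirectSum.component.lof_self] at hx
      exact hx
    · intro j _ hji
      rw [hcj, hφx0, DirectSum.component.of, dif_neg (Ne.symm hji)]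
      simp
    · intro h
      exact absurd (Finset.mem_univ i) h

/-- A square matrix over a field is similar to its transpose. -/
theorem isConj_transpose {F : Type*} [Field F] {n : Type*} [Fintype n] [DecidableEq n]
    (A : Matrix n n F) : IsConj A A.transpose := by
  obtain ⟨B, hB1, hB2⟩ := exists_selfadjoint_form (Matrix.toLin' A)
  set P := LinearMap.BilinForm.toMatrix' B with hP
  have hBP : ∀ x y, B x y = x ⬝ᵥ P.mulVec y := by
    intro x y
    rw [← Matrix.toBilin'_apply', hP, Matrix.toBilin'_toMatrix']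
  have hcomm : P * A = A.transpose * P := by
    apply Matrix.toBilin'.injective
    refine LinearMap.ext fun x => LinearMap.ext fun y => ?_
    rw [Matrix.toBilin'_apply', Matrix.toBilin'_apply']
    rw [← Matrix.mulVec_mulVec, ← hBP, ← Matrix.mulVec_mulVec]
    have := hB1 x y
    simp only [Matrix.toLin'_apply] at this
    rw [← this, hBP]
    rw [dotProduct_comm, Matrix.dotProduct_mulVec, ← Matrix.mulVec_transpose, dotProduct_comm]
  have hPunit : IsUnit P := by
    rw [← Matrix.mulVec_injective_iff_isUnit]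
    intro y y' hyy'
    have : y - y' = 0 := by
      apply hB2
      intro x
      rw [hBP, Matrix.mulVec_sub, hyy', sub_self, dotProduct_zero]
    exact sub_eq_zero.mp this
  obtain ⟨u, hu⟩ := hPunit
  exact ⟨u, by rw [SemiconjBy, hu]; exact hcomm⟩

end Cfsg.Agent.Lib.Helper43
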